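/-
Rank three permutation groups: the graph of the first suborbit, its transport along an isomorphism of point
stabilisers, and the identification of the group inside the automorphism group of the graph.
-/
import Cfsg.Agent.Spor.PGTm

set_option autoImplicit false

namespace CL.R3

open MulAction Subgroup CL.PG

variable {Γ Y : Type*} [Group Γ] [MulAction Γ Y]

/-- The orbital graph of the set `Δ` at the base point `a`. -/
def Adj (S : Subgroup Γ) (a : Y) (Δ : Set Y) (x y : Y) : Prop := ∃ g ∈ S, g • x = a ∧ g • y ∈ Δ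

/-- A faithful rank three action of `S` with point stabiliser `H` and suborbits of lengths `1`, `k`, `l`. -/
structure Rk (S H : Subgroup Γ) (a b c : Y) (k l : ℕ) : Prop where
  fa : ∀ g ∈ S, (∀ y : Y, g • y = y) → g = 1
  tr : ∀ x : Y, ∃ g ∈ S, g • x = a
  stab : S ⊓ stabilizer Γ a = H
  hb : (orbit H b).ncard = k
  hc : (orbit H c).ncard = l
  card : Nat.card Y = 1 + k + l
  ne : k ≠ l
  k1 : 1 < k
  l1 : 1 < l

/-- A regular graph that is invariant under `H`, with `Δ` the set of neighbours of `a`, and connected to the rest. -/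
structure Gr (H : Subgroup Γ) (a : Y) (Δ : Set Y) (k : ℕ) (R : Y → Y → Prop) : Prop where
  fix : ∀ h ∈ H, h • a = a
  inv : ∀ h ∈ H, ∀ x y, R (h • x) (h • y) ↔ R x y
  symm : ∀ x y, R x y → R y x
  irr : ∀ x, ¬ R x x
  deg : ∀ x, {y | R x y}.ncard = k
  base : ∀ y, R a y ↔ y ∈ Δ
  nd : ∃ x ∈ Δ, ∃ y, R x y ∧ y ≠ a ∧ y ∉ Δ

/-- The automorphism group of a relation. -/
def aut (R : Y → Y → Prop) : Subgroup (Equiv.Perm Y) where
  carrier := {σ | ∀ x y, R (σ x) (σ y) ↔ R x y}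
  one_mem' := fun _ _ => Iff.rfl
  mul_mem' := fun {_ _} h1 h2 x y => (h1 _ _).trans (h2 x y)
  inv_mem' := fun {σ} h x y => by simpa using (h (σ⁻¹ x) (σ⁻¹ y)).symm

/-- `X` fixes a point in the orbit of `b` under `H`. -/
def FixQ (H : Subgroup Γ) (b : Y) (X : Subgroup Γ) : Prop := ∃ p ∈ orbit H b, X ≤ stabilizer Γ p

/-- All orbits of `X` in the orbit of `b` under `H` are long. -/
def BigQ (H : Subgroup Γ) (b : Y) (k l : ℕ) (X : Subgroup Γ) : Prop :=
  ∀ p ∈ orbit H b, k * k < (orbit X p).ncard * l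

theorem mem_orb {H : Subgroup Γ} {x y : Y} : y ∈ orbit H x ↔ ∃ h ∈ H, h • x = y :=
  ⟨fun ⟨h, e⟩ => ⟨h, h.2, e⟩, fun ⟨h, hh, e⟩ => ⟨⟨h, hh⟩, e⟩⟩

theorem smul_mem_orb {H : Subgroup Γ} {g : Γ} (hg : g ∈ H) {x y : Y} : g • y ∈ orbit H x ↔ y ∈ orbit H x :=
  ⟨fun h => inv_smul_smul g y ▸ mem_orbit_of_mem_orbit (⟨g⁻¹, H.inv_mem hg⟩ : H) h,
    fun h => mem_orbit_of_mem_orbit (⟨g, hg⟩ : H) h⟩

theorem card_inf_conj {S : Subgroup Γ} {g : Γ} (hg : g ∈ S) (x y : Y) :
    Nat.card ↥(S ⊓ stabilizer Γ (g • x) ⊓ stabilizer Γ (g • y)) = Nat.card ↥(S ⊓ stabilizer Γ x ⊓ stabilizer Γ y) := by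
  refine Nat.card_congr ⟨fun u => ⟨g⁻¹ * u * g, ⟨S.mul_mem (S.mul_mem (S.inv_mem hg) u.2.1.1) hg, ?_⟩, ?_⟩,
    fun u => ⟨g * u * g⁻¹, ⟨S.mul_mem (S.mul_mem hg u.2.1.1) (S.inv_mem hg), ?_⟩, ?_⟩, fun u => ?_, fun u => ?_⟩
  · show (g⁻¹ * u * g) • x = x
    rw [mul_smul, mul_smul, show (u : Γ) • g • x = g • x from u.2.1.2, inv_smul_smul]
  · show (g⁻¹ * u * g) • y = y
    rw [mul_smul, mul_smul, show (u : Γ) • g • y = g • y from u.2.2, inv_smul_smul]
  · show (g * u * g⁻¹) • g • x = g • x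
    rw [mul_smul, inv_smul_smul, mul_smul, show (u : Γ) • x = x from u.2.1.2]
  · show (g * u * g⁻¹) • g • y = g • y
    rw [mul_smul, inv_smul_smul, mul_smul, show (u : Γ) • y = y from u.2.2]
  · exact Subtype.ext (by simp [mul_assoc])
  · exact Subtype.ext (by simp [mul_assoc])

theorem FixQ.conj {H X : Subgroup Γ} {b : Y} {g : Γ} (hg : g ∈ H) (h : FixQ H b (X.map (cjH g))) : FixQ H b X := by
  obtain ⟨p, hp, h1⟩ := h
  refine ⟨g⁻¹ • p, (smul_mem_orb (H.inv_mem hg)).2 hp, fun x hx => ?_⟩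
  have h2 : (g * x * g⁻¹) • p = p := h1 ⟨x, hx, rfl⟩
  rw [mem_stabilizer_iff, eq_inv_smul_iff, ← mul_smul, ← mul_smul, h2]

theorem ncard_orbit_conj (X : Subgroup Γ) (g : Γ) (p : Y) :
    (orbit (X.map (cjH g)) (g • p)).ncard = (orbit X p).ncard := by
  rw [← Set.ncard_image_of_injective (orbit X p) (MulAction.injective g)]
  congr 1
  ext y
  constructor
  · rintro ⟨⟨_, x, hx, rfl⟩, rfl⟩
    exact ⟨x • p, ⟨⟨x, hx⟩, rfl⟩, show g • x • p = (g * x * g⁻¹) • g • p by rw [mul_smul, inv_smul_smul, mul_smul]⟩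
  · rintro ⟨_, ⟨x, rfl⟩, rfl⟩
    exact ⟨⟨_, x, x.2, rfl⟩, show (g * x * g⁻¹) • g • p = g • (x : Γ) • p by rw [mul_smul, inv_smul_smul, mul_smul]⟩

theorem BigQ.conj {H X : Subgroup Γ} {b : Y} {k l : ℕ} {g : Γ} (hg : g ∈ H) (h : BigQ H b k l (X.map (cjH g))) :
    BigQ H b k l X := fun p hp => ncard_orbit_conj X g p ▸ h _ ((smul_mem_orb hg).2 hp)

namespace Rk

variable {S H : Subgroup Γ} {a b c : Y} {k l : ℕ} (h : Rk S H a b c k l)
include h

theorem fin : Finite Y := Nat.finite_of_card_ne_zero (by rw [h.card]; omega)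

theorem inj : Function.Injective (toPermHom S Y) :=
  (injective_iff_map_eq_one _).2 fun g hg => Subtype.ext (h.fa g g.2 fun y => Equiv.congr_fun hg y)

theorem finS : Finite S := have := h.fin; Finite.of_injective _ h.inj

theorem le : H ≤ S := h.stab ▸ inf_le_left

theorem finH : Finite H := have := h.finS; Finite.of_injective _ (inclusion_injective h.le)

theorem fix {g : Γ} (hg : g ∈ H) : g • a = a := (h.stab.ge hg).2

theorem mem {g : Γ} (hg : g ∈ S) (ha : g • a = a) : g ∈ H := h.stab.le ⟨hg, ha⟩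

theorem orb_a : orbit H a = {a} :=
  Set.eq_singleton_iff_unique_mem.2 ⟨mem_orbit_self a, fun _ ⟨g, hg⟩ => hg.symm.trans (h.fix g.2)⟩

theorem size_a {x : Y} (hx : a ∈ orbit H x) : (orbit H x).ncard = 1 := by
  rw [← orbit_eq_iff.2 hx, h.orb_a, Set.ncard_singleton]

theorem a_b : a ∉ orbit H b := fun e => h.k1.ne ((h.size_a e).symm.trans h.hb)

theorem a_c : a ∉ orbit H c := fun e => h.l1.ne ((h.size_a e).symm.trans h.hc)

theorem b_c {x : Y} (hb : x ∈ orbit H b) (hc : x ∈ orbit H c) : False :=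
  h.ne (by rw [← h.hb, ← h.hc, ← orbit_eq_iff.2 hb, orbit_eq_iff.2 hc])

theorem cover (x : Y) : x = a ∨ x ∈ orbit H b ∨ x ∈ orbit H c := by
  have := h.fin
  have h1 : insert a (orbit H b ∪ orbit H c) = Set.univ := by
    rw [Set.eq_univ_iff_ncard, Set.ncard_insert_of_notMem (fun e => e.elim h.a_b h.a_c),
      Set.ncard_union_eq (Set.disjoint_left.2 fun _ => h.b_c), h.hb, h.hc, h.card]
    omega
  exact h1.ge (Set.mem_univ x)

theorem card_eq : Nat.card S = (1 + k + l) * Nat.card H := by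
  have := h.fin
  rw [card_eq_orbit_mul S a, h.stab, ← h.card, (Set.eq_univ_iff_ncard _).1 (Set.eq_univ_of_forall fun x => ?_)]
  obtain ⟨g, hg, e⟩ := h.tr x
  exact mem_orb.2 ⟨g⁻¹, S.inv_mem hg, by rw [← e, inv_smul_smul]⟩

theorem adj_iff {g : Γ} (hg : g ∈ S) {x : Y} (hx : g • x = a) (y : Y) :
    Adj S a (orbit H b) x y ↔ g • y ∈ orbit H b := by
  refine ⟨fun ⟨u, hu, h1, h2⟩ => ?_, fun e => ⟨g, hg, hx, e⟩⟩
  have h3 : g * u⁻¹ ∈ H := h.mem (S.mul_mem hg (S.inv_mem hu)) (by rw [mul_smul, ← h1, inv_smul_smul, hx, h1])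
  have := (smul_mem_orb h3).2 h2
  rwa [mul_smul, inv_smul_smul] at this

theorem adj_inv {g : Γ} (hg : g ∈ S) (x y : Y) :
    Adj S a (orbit H b) (g • x) (g • y) ↔ Adj S a (orbit H b) x y := by
  obtain ⟨u, hu, e⟩ := h.tr (g • x)
  rw [h.adj_iff hu e, h.adj_iff (S.mul_mem hu hg) (by rw [mul_smul, e]), mul_smul]

theorem adj_base (y : Y) : Adj S a (orbit H b) a y ↔ y ∈ orbit H b := by
  rw [h.adj_iff S.one_mem (one_smul _ _), one_smul]

theorem adj_symm (x y : Y) (e : Adj S a (orbit H b) x y) : Adj S a (orbit H b) y x := by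
  have := h.finH
  obtain ⟨g, hg, rfl, h2⟩ := e
  obtain ⟨u, hu, h3⟩ := h.tr (g • y)
  refine ⟨u * g, S.mul_mem hu hg, by rw [mul_smul, h3], ?_⟩
  rw [mul_smul]
  have h4 := card_eq_orbit_mul H (u • g • x)
  have h5 := card_inf_conj hu (g • y) (g • x)
  rw [h3, h.stab, inf_right_comm, h.stab] at h5
  rw [h5, card_eq_orbit_mul H (g • y), orbit_eq_iff.2 h2, h.hb] at h4
  have : Finite ↥(H ⊓ stabilizer Γ (g • y)) := Finite.of_injective _ (inclusion_injective inf_le_left)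
  have h6 := Nat.eq_of_mul_eq_mul_right Nat.card_pos h4
  rcases h.cover (u • g • x) with e | e | e
  · rw [e, h.orb_a, Set.ncard_singleton] at h6
    exact absurd h6 h.k1.ne'
  · exact e
  · rw [orbit_eq_iff.2 e, h.hc] at h6
    exact absurd h6 h.ne

theorem adj_irr (x : Y) : ¬ Adj S a (orbit H b) x x := fun ⟨_, _, h1, h2⟩ => h.a_b (h1 ▸ h2)

theorem adj_deg (x : Y) : {y | Adj S a (orbit H b) x y}.ncard = k := by
  obtain ⟨g, hg, e⟩ := h.tr x
  rw [← h.hb, ← Set.ncard_image_of_injective _ (MulAction.injective g)]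
  congr 1
  ext y
  exact ⟨fun ⟨z, h1, h2⟩ => h2 ▸ (h.adj_iff hg e z).1 h1,
    fun h1 => ⟨g⁻¹ • y, (h.adj_iff hg e _).2 (by rwa [smul_inv_smul]), smul_inv_smul _ _⟩⟩

theorem gr (hd : ¬ k + 1 ∣ 1 + k + l) : Gr H a (orbit H b) k (Adj S a (orbit H b)) := by
  refine ⟨fun _ => h.fix, fun g hg => h.adj_inv (h.le hg), h.adj_symm, h.adj_irr, h.adj_deg, h.adj_base, ?_⟩
  by_contra hn
  have := h.fin
  have : IsPretransitive S Y := ⟨fun x y => by
    obtain ⟨g, hg, e⟩ := h.tr x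
    obtain ⟨u, hu, e'⟩ := h.tr y
    exact ⟨⟨u⁻¹ * g, S.mul_mem (S.inv_mem hu) hg⟩, show (u⁻¹ * g) • x = y by rw [mul_smul, e, ← e', inv_smul_smul]⟩⟩
  let N : Y → Set Y := fun x => insert x {y | Adj S a (orbit H b) x y}
  have h1 : ∀ x, (N x).ncard = k + 1 := fun x => by
    rw [← h.adj_deg x]
    exact Set.ncard_insert_of_notMem (h.adj_irr x)
  have h2 : ∀ x ∈ N a, N x = N a := fun x hx => by
    rcases hx with rfl | hx
    · rfl
    refine Set.eq_of_subset_of_ncard_le (fun y hy => ?_) (by rw [h1, h1])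
    rcases hy with rfl | hy
    · exact Or.inr hx
    by_contra hy'
    exact hn ⟨x, (h.adj_base x).1 hx, y, hy, fun e => hy' (Or.inl e), fun e => hy' (Or.inr ((h.adj_base y).2 e))⟩
  have h3 : ∀ (g : S) x y, g • y ∈ N (g • x) ↔ y ∈ N x := fun g x y =>
    or_congr (smul_left_cancel_iff g) (h.adj_inv g.2 x y)
  have h4 : IsBlock S (N a) := isBlock_iff_smul_eq_of_mem.2 fun g x hx hg => by
    ext y
    rw [Set.mem_smul_set_iff_inv_smul_mem, ← h2 x hx, ← h3 g, smul_inv_smul, h2 _ hg, h2 x hx]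
  have h5 := h4.ncard_dvd_card ⟨a, Or.inl rfl⟩
  rw [h1, h.card] at h5
  exact hd h5

theorem le_aut : (toPermHom S Y).range ≤ aut (Adj S a (orbit H b)) := by
  rintro _ ⟨g, rfl⟩
  exact h.adj_inv g.2

/-- An invariant relation is determined by the rows of the three base points. -/
theorem ext_rel {R R' : Y → Y → Prop} (h1 : Gr H a (orbit H b) k R) (h2 : Gr H a (orbit H b) k R')
    (hb : {y | R b y} = {y | R' b y}) (hc : {y | R c y} = {y | R' c y}) (x y : Y) : R x y ↔ R' x y := by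
  rcases h.cover x with rfl | ⟨g, rfl⟩ | ⟨g, rfl⟩
  · rw [h1.base, h2.base]
  · rw [← smul_inv_smul (g : Γ) y]
    exact (h1.inv g g.2 _ _).trans ((Set.ext_iff.1 hb _).trans (h2.inv g g.2 _ _).symm)
  · rw [← smul_inv_smul (g : Γ) y]
    exact (h1.inv g g.2 _ _).trans ((Set.ext_iff.1 hc _).trans (h2.inv g g.2 _ _).symm)

end Rk

/-- Two subgroups of the same order and of index at most two, one of them simple, are equal. -/
theorem eq_of_index_le_two {M : Type*} [Group M] {A S T : Subgroup M} [IsSimpleGroup S] {o : ℕ} (hA : UB A (2 * o))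
    (hS : S ≤ A) (hT : T ≤ A) (h1 : Nat.card S = o) (h2 : Nat.card T = o) (ho : 2 < o) : T = S := by
  have := hA.1
  have := (hA.mono hT).1
  have h3 := (T.subgroupOf A).card_mul_index
  rw [Nat.card_congr (subgroupOfEquivOfLe hT).toEquiv, h2] at h3
  have h4 : (T.subgroupOf A).index ≤ 2 := by
    have := hA.2
    rw [← h3, mul_comm 2] at this
    exact Nat.le_of_mul_le_mul_left this (by omega)
  have h5 : (T.subgroupOf A).index ≠ 0 := index_ne_zero_of_finite
  have h6 : (T.subgroupOf A).Normal := by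
    rcases (by omega : (T.subgroupOf A).index = 1 ∨ (T.subgroupOf A).index = 2) with e | e
    · rw [index_eq_one.1 e]; infer_instance
    · exact normal_of_index_eq_two e
  have h7 : (T.subgroupOf S).Normal := ⟨fun x hx g =>
    h6.conj_mem ⟨x, hS x.2⟩ hx ⟨g, hS g.2⟩⟩
  rcases h7.eq_bot_or_eq_top with e | e
  · have h8 : T.relIndex S ≤ T.relIndex A := relIndex_le_of_le_right hS h5
    rw [relIndex, e, index_bot, h1] at h8
    exact absurd (h8.trans h4) (by omega)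
  · exact (eq_of_le_of_card_ge (subgroupOf_eq_top.1 e) (by rw [h1, h2])).symm

variable {G Ω : Type*} [Group G] [MulAction G Ω] {H' : Subgroup G} {H : Subgroup Γ} (φ : H' ≃* H)

theorem exists_equivariant {ι : Type*} (u : ι → Ω) (v : ι → Y) (d : Y)
    (hiff : ∀ i j (g : H'), g • u i = u j ↔ φ g • v i = v j) :
    ∃ f : Ω → Y, (∀ i (g : H'), f (g • u i) = φ g • v i) ∧
      ∀ i j (g g' : H'), f (g • u i) = f (g' • u j) → g • u i = g' • u j := by
  classical
  have h1 : ∀ i j (g g' : H'), g • u i = g' • u j ↔ φ g • v i = φ g' • v j := fun i j g g' => by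
    rw [← inv_smul_eq_iff, ← mul_smul, hiff, map_mul, map_inv, mul_smul, inv_smul_eq_iff]
  have h2 : ∀ i (g : H'), (if h : ∃ p : ι × H', p.2 • u p.1 = g • u i then φ h.choose.2 • v h.choose.1 else d) =
      φ g • v i := fun i g => by
    have h3 : ∃ p : ι × H', p.2 • u p.1 = g • u i := ⟨(i, g), rfl⟩
    rw [dif_pos h3]
    exact (h1 _ _ _ _).1 h3.choose_spec
  refine ⟨fun x => if h : ∃ p : ι × H', p.2 • u p.1 = x then φ h.choose.2 • v h.choose.1 else d, h2,
    fun i j g g' e => (h1 _ _ _ _).2 ?_⟩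
  rw [← h2, ← h2]
  exact e

/-- The image of a point stabiliser. -/
def img (x : Ω) : Subgroup Γ := (stabilizer H' x).map (H.subtype.comp φ.toMonoidHom)

theorem img_le (x : Ω) : img φ x ≤ H := by
  rintro _ ⟨g, -, rfl⟩
  exact (φ g).2

theorem mem_img {x : Ω} {g : H'} : (φ g : Γ) ∈ img φ x ↔ g • x = x :=
  ⟨fun ⟨_, h1, h2⟩ => φ.injective (Subtype.ext h2) ▸ h1, fun e => ⟨g, e, rfl⟩⟩

theorem card_img {x : Ω} {k m : ℕ} (h0 : 0 < k) (hk : (orbit H' x).ncard = k) (hm : Nat.card H = k * m) :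
    Nat.card (img φ x) = m := by
  rw [img, card_map_of_injective (f := H.subtype.comp φ.toMonoidHom) (H.subtype_injective.comp φ.injective)]
  have := (stabilizer H' x).index_mul_card
  rw [index_stabilizer, hk, Nat.card_congr φ.toEquiv, hm] at this
  exact Nat.eq_of_mul_eq_mul_left h0 this

theorem fix_iff [Finite H] {x : Ω} {p : Y} {k m : ℕ} (h0 : 0 < k) (hk : (orbit H' x).ncard = k)
    (hp : (orbit H p).ncard = k) (hm : Nat.card H = k * m) (hle : img φ x ≤ stabilizer Γ p) (g : H') :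
    g • x = x ↔ φ g • p = p := by
  have h1 := card_eq_orbit_mul H p
  rw [hp, hm] at h1
  have : Finite ↥(H ⊓ stabilizer Γ p) := Finite.of_injective _ (inclusion_injective inf_le_left)
  have h2 := eq_of_le_of_card_ge (le_inf (img_le φ x) hle)
    (by rw [card_img φ h0 hk hm, Nat.eq_of_mul_eq_mul_left h0 h1])
  rw [← mem_img φ, h2]
  exact ⟨fun e => e.2, fun e => ⟨(φ g).2, e⟩⟩

/-- The lengths of the paired suborbits. -/
theorem orbit_pair [Finite H'] (x y : Ω) : (orbit (stabilizer H' x) y).ncard * (orbit H' x).ncard =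
    (orbit (stabilizer H' y) x).ncard * (orbit H' y).ncard := by
  have h1 := card_eq_orbit_mul (stabilizer H' x) y
  have h2 := card_eq_orbit_mul (stabilizer H' y) x
  have h3 := (stabilizer H' x).index_mul_card
  have h4 := (stabilizer H' y).index_mul_card
  rw [index_stabilizer, h1] at h3
  rw [index_stabilizer, h2, inf_comm, ← h3] at h4
  refine Nat.eq_of_mul_eq_mul_right (m := Nat.card ↥(stabilizer H' x ⊓ stabilizer H' y)) Nat.card_pos ?_
  linarith

include φ in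
/-- Recognition of a rank three group from its point stabiliser. -/
theorem main' {S' : Subgroup G} {a b c : Ω} {k l : ℕ} (h : Rk S' H' a b c k l) {S : Subgroup Γ} {a0 b0 c0 : Y}
    (h0 : Rk S H a0 b0 c0 k l) [IsSimpleGroup S] {m m' o : ℕ} (hm : Nat.card H = k * m) (hm' : Nat.card H = l * m')
    (ho : Nat.card S = o) (h2 : 2 < o) (hd : ¬ k + 1 ∣ 1 + k + l)
    (hK : FixQ H b0 (img φ b)) (hP : FixQ H c0 (img φ c) ∨ BigQ H b0 k l (img φ c))
    {T T' : Set Y} (hT : ∀ R, Gr H a0 (orbit H b0) k R → {y | R b0 y} = T ∧ {y | R c0 y} = T')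
    (hA : UB (aut (Adj S a0 (orbit H b0))) (2 * o)) : Nonempty (S' ≃* S) := by
  have := h.fin
  have := h.finH
  have := h0.finH
  have k0 : 0 < k := h.k1.trans' one_pos
  have l0 : 0 < l := h.l1.trans' one_pos
  have hG := h.gr hd
  obtain ⟨p, hp, h3⟩ := hK
  have h4 := fix_iff φ k0 h.hb (by rw [orbit_eq_iff.2 hp, h0.hb]) hm h3
  obtain ⟨q, hq, h5⟩ : ∃ q ∈ orbit H c0, img φ c ≤ stabilizer Γ q := by
    refine hP.resolve_right fun h5 => ?_
    obtain ⟨f, f1, f2⟩ := exists_equivariant φ (fun _ : Unit => b) (fun _ => p) p fun _ _ => h4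
    obtain ⟨x, hx, y, h6, h7, h8⟩ := hG.nd
    obtain ⟨u, rfl⟩ := ((h.cover y).resolve_left h7).resolve_left h8
    obtain ⟨g, hg⟩ := mem_orbit_of_mem_orbit u⁻¹ hx
    have h9 : Adj S' a (orbit H' b) (g • b) c := by
      rw [← hG.inv u u.2]
      have : (u : G) • g • b = x := (congrArg (u • ·) hg).trans (smul_inv_smul u x)
      rwa [this]
    have e1 : (orbit (img φ c) (φ g • p)).ncard = (orbit (stabilizer H' c) (g • b)).ncard := by
      rw [← Set.InjOn.ncard_image (f := f)]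
      · congr 1
        ext z
        constructor
        · rintro ⟨⟨_, w, hw, rfl⟩, rfl⟩
          exact ⟨(w * g) • b, ⟨⟨w, hw⟩, (mul_smul w g b).symm⟩, by rw [f1 (), map_mul, mul_smul]; rfl⟩
        · rintro ⟨_, ⟨w, rfl⟩, rfl⟩
          refine ⟨⟨φ w, (mem_img φ).2 w.2⟩, ?_⟩
          rw [show f ((fun m : stabilizer H' c => m • g • b) w) = f (((w : H') * g) • b) from by
            rw [mul_smul]; rfl, f1 (), map_mul, mul_smul]
          rfl
      · rintro _ ⟨w, rfl⟩ _ ⟨w', rfl⟩ e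
        have := f2 () () (w * g) (w' * g) (by rw [mul_smul, mul_smul]; exact e)
        rwa [mul_smul, mul_smul] at this
    have e2 := orbit_pair (H' := H') c (g • b)
    have e3 : (orbit (stabilizer H' (g • b)) c).ncard ≤ k := by
      rw [← hG.deg (g • b)]
      refine Set.ncard_le_ncard ?_
      rintro _ ⟨w, rfl⟩
      have := (hG.inv w.1 w.1.2 _ _).2 h9
      rwa [show (w.1 : G) • g • b = g • b from w.2] at this
    have e4 := h5 _ (mem_orbit_of_mem_orbit (φ g) hp)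
    rw [orbit_smul, h.hb, h.hc] at e2
    rw [e1, e2] at e4
    exact absurd (Nat.mul_le_mul_right k e3) (by omega)
  have h6 := fix_iff φ l0 h.hc (by rw [orbit_eq_iff.2 hq, h0.hc]) hm' h5
  have o1 := orbit_eq_iff.2 hp
  have o2 := orbit_eq_iff.2 hq
  obtain ⟨f, f1, f2⟩ := exists_equivariant φ ![a, b, c] ![a0, p, q] p (by
    have a1 : ∀ g : H', g • a = a := fun g => h.fix g.2
    have a2 : ∀ g : H, g • a0 = a0 := fun g => h0.fix g.2
    intro i j g
    fin_cases i <;> fin_cases j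
    · exact iff_of_true (a1 g) (a2 _)
    · exact iff_of_false (fun e => h.a_b (mem_orbit_symm.1 ⟨g, e⟩)) fun e => h0.a_b (o1 ▸ mem_orbit_symm.1 ⟨_, e⟩)
    · exact iff_of_false (fun e => h.a_c (mem_orbit_symm.1 ⟨g, e⟩)) fun e => h0.a_c (o2 ▸ mem_orbit_symm.1 ⟨_, e⟩)
    · exact iff_of_false (fun e => h.a_b ⟨g, e⟩) fun e => h0.a_b (o1 ▸ ⟨_, e⟩)
    · exact h4 g
    · exact iff_of_false (fun e => h.b_c ⟨g, e⟩ (mem_orbit_self c)) fun e => h0.b_c (o1 ▸ ⟨_, e⟩) hq
    · exact iff_of_false (fun e => h.a_c ⟨g, e⟩) fun e => h0.a_c (o2 ▸ ⟨_, e⟩)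
    · exact iff_of_false (fun e => h.b_c (mem_orbit_self b) ⟨g, e⟩) fun e => h0.b_c hp (o2 ▸ ⟨_, e⟩)
    · exact h6 g)
  have c1 : ∀ x, ∃ (i : Fin 3) (g : H'), g • ![a, b, c] i = x := fun x => by
    rcases h.cover x with rfl | ⟨g, e⟩ | ⟨g, e⟩
    exacts [⟨0, 1, one_smul _ _⟩, ⟨1, g, e⟩, ⟨2, g, e⟩]
  have c2 : Function.Bijective f := by
    have := h0.fin
    refine (Nat.bijective_iff_injective_and_card f).2 ⟨fun x y e => ?_, h.card.trans h0.card.symm⟩
    obtain ⟨i, g, rfl⟩ := c1 x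
    obtain ⟨j, g', rfl⟩ := c1 y
    exact f2 i j g g' e
  let F := Equiv.ofBijective f c2
  have f3 : ∀ (g : H') x, F (g • x) = φ g • F x := fun g x => by
    obtain ⟨i, u, rfl⟩ := c1 x
    show f _ = _ • f _
    rw [← mul_smul, f1, f1, map_mul, mul_smul]
  have f4 : F a = a0 := show f a = a0 by simpa using f1 0 1
  have f5 : ∀ x, F x ∈ orbit H b0 ↔ x ∈ orbit H' b := fun x => by
    rw [← o1]
    refine ⟨fun ⟨g, e⟩ => ⟨φ.symm g, F.injective ?_⟩, fun ⟨g, e⟩ => ⟨φ g, e ▸ (f1 1 g).symm⟩⟩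
    exact (f1 1 _).trans (by rw [φ.apply_symm_apply]; exact e)
  have h7 : Gr H a0 (orbit H b0) k fun x y => Adj S' a (orbit H' b) (F.symm x) (F.symm y) := by
    refine ⟨fun _ => h0.fix, fun g hg x y => ?_, fun x y => hG.symm _ _, fun x => hG.irr _, fun x => ?_, fun y => ?_, ?_⟩
    · have : ∀ z, F.symm (g • z) = φ.symm ⟨g, hg⟩ • F.symm z := fun z => by
        rw [Equiv.symm_apply_eq, f3, φ.apply_symm_apply, F.apply_symm_apply]; rfl
      rw [this, this]
      exact hG.inv _ (φ.symm ⟨g, hg⟩).2 _ _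
    · rw [← hG.deg (F.symm x), ← Set.ncard_image_of_injective _ F.symm.injective]
      congr 1
      ext y
      exact ⟨fun ⟨z, h1, h2⟩ => h2 ▸ h1, fun h1 => ⟨F y, by simpa using h1, F.symm_apply_apply y⟩⟩
    · rw [← f4, F.symm_apply_apply, hG.base, ← f5, F.apply_symm_apply]
    · obtain ⟨x, hx, y, h6, h7, h8⟩ := hG.nd
      exact ⟨F x, (f5 x).2 hx, F y, by simpa using h6, fun e => h7 (F.injective (e.trans f4.symm)),
        fun e => h8 ((f5 y).1 e)⟩
  have h8 := h0.ext_rel h7 (h0.gr hd) ((hT _ h7).1.trans (hT _ (h0.gr hd)).1.symm)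
    ((hT _ h7).2.trans (hT _ (h0.gr hd)).2.symm)
  let ψ : S' →* Equiv.Perm Y := F.permCongrHom.toMonoidHom.comp (toPermHom S' Ω)
  have h9 : Function.Injective ψ := F.permCongrHom.injective.comp h.inj
  have e1 := MonoidHom.ofInjective h9
  have e2 := MonoidHom.ofInjective h0.inj
  have := e2.symm.isSimpleGroup
  have e3 : ψ.range = (toPermHom S Y).range := by
    refine eq_of_index_le_two hA h0.le_aut ?_ ((Nat.card_congr e2.symm.toEquiv).trans ho) ?_ h2
    · rintro _ ⟨g, rfl⟩ x y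
      rw [← h8, ← h8]
      have : ∀ z, F.symm (ψ g z) = (g : G) • F.symm z := fun z => F.symm_apply_apply _
      rw [this, this]
      exact h.adj_inv g.2 _ _
    · rw [Nat.card_congr e1.symm.toEquiv, h.card_eq, Nat.card_congr φ.toEquiv, ← h0.card_eq, ho]
  exact ⟨e1.trans ((MulEquiv.subgroupCongr e3).trans e2.symm)⟩

include φ in
theorem main {S' : Subgroup G} {a b c : Ω} {k l : ℕ} (h : Rk S' H' a b c k l) {S : Subgroup Γ} {a0 b0 c0 : Y}
    (h0 : Rk S H a0 b0 c0 k l) [IsSimpleGroup S] {m m' o : ℕ} (hm : Nat.card H = k * m) (hm' : Nat.card H = l * m')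
    (ho : Nat.card S = o) (h2 : 2 < o) (hd : ¬ k + 1 ∣ 1 + k + l) (hK : ∀ X ≤ H, Nat.card X = m → FixQ H b0 X)
    (hP : ∀ X ≤ H, Nat.card X = m' → FixQ H c0 X ∨ BigQ H b0 k l X)
    {T T' : Set Y} (hT : ∀ R, Gr H a0 (orbit H b0) k R → {y | R b0 y} = T ∧ {y | R c0 y} = T')
    (hA : UB (aut (Adj S a0 (orbit H b0))) (2 * o)) : Nonempty (S' ≃* S) :=
  main' φ h h0 hm hm' ho h2 hd (hK _ (img_le φ b) (card_img φ (h.k1.trans' one_pos) h.hb hm))
    (hP _ (img_le φ c) (card_img φ (h.l1.trans' one_pos) h.hc hm')) hT hA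

/-- The rank three data of a transitive permutation group. -/
theorem rk_perm {Ω : Type*} [Fintype Ω] (G : Subgroup (Equiv.Perm Ω)) [IsPretransitive G Ω] {a b c : Ω} {k l : ℕ}
    (hΩ : Fintype.card Ω = 1 + k + l) (hb : (orbit (stabilizer G a) b).ncard = k)
    (hc : (orbit (stabilizer G a) c).ncard = l) (ne : k ≠ l) (k1 : 1 < k) (l1 : 1 < l) :
    Rk (⊤ : Subgroup G) (stabilizer G a) a b c k l :=
  ⟨fun _ _ h => Subtype.ext (Equiv.ext h), fun x => (exists_smul_eq G x a).imp fun _ h => ⟨trivial, h⟩,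
    top_inf_eq _, hb, hc, Nat.card_eq_fintype_card.trans hΩ, ne, k1, l1⟩

end CL.R3
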