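/-
Sylow arguments for the classification of subgroups of a given order.
-/
import Cfsg.Agent.Spor.PGCov
import Cfsg.Agent.Spor.PGGm
import Cfsg.Agent.Spor.PGFrob

set_option autoImplicit false

namespace CL.R3

open MulAction Subgroup CL.PG

variable {Γ : Type*} [Group Γ]

theorem card_subOf {A B : Subgroup Γ} (h : A ≤ B) : Nat.card (A.subgroupOf B) = Nat.card A :=
  Nat.card_congr (subgroupOfEquivOfLe h).toEquiv

theorem fin_of_le {A B : Subgroup Γ} [Finite B] (h : A ≤ B) : Finite A :=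
  Finite.of_injective _ (inclusion_injective h)

/-- A subgroup whose order is divisible by the order of a Sylow subgroup contains a conjugate of a given one. -/
theorem wlog_syl {H V : Subgroup Γ} {p k o m : ℕ} (hp : p.Prime) (ho : Nat.card H = o) (h0 : 0 < o)
    (hk : o.factorization p = k) (hV : Nat.card V = p ^ k) (hVH : V ≤ H) (hm : p ^ k ∣ m) {Q : Subgroup Γ → Prop}
    (hQ : ∀ g ∈ H, ∀ X : Subgroup Γ, Q (X.map (cjH g)) → Q X) (h : ∀ X ≤ H, Nat.card X = m → V ≤ X → Q X) :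
    ∀ X ≤ H, Nat.card X = m → Q X := fun X hX hc => by
  have := Fact.mk hp
  have : Finite H := Nat.finite_of_card_ne_zero (by omega)
  have := fin_of_le hX
  obtain ⟨A, hA⟩ := Sylow.exists_subgroup_card_pow_prime p (G := X) (hc ▸ hm)
  have hA' : Nat.card (A.map X.subtype) = p ^ k := by rw [card_map_of_injective X.subtype_injective, hA]
  obtain ⟨g, hg, h1⟩ := exists_conj_le hp ho hk hV hVH (IsPGroup.of_card hA') ((map_subtype_le A).trans hX)
  have := fin_of_le hVH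
  have h2 : (A.map X.subtype).map (cjH g) = V := eq_of_le_of_card_ge (by
    rintro _ ⟨a, ha, rfl⟩; exact h1 a ha) (by rw [card_map_conj, hA', hV])
  refine hQ g hg X (h _ ?_ (by rw [card_map_conj, hc]) (h2 ▸ map_mono (map_subtype_le A)))
  rintro _ ⟨a, ha, rfl⟩
  exact H.mul_mem (H.mul_mem hg (hX ha)) (H.inv_mem hg)

/-- A subgroup of the right order as a Sylow subgroup of an overgroup. -/
theorem exists_syl {X V : Subgroup Γ} [Finite X] {p k r : ℕ} [Fact p.Prime] (hV : Nat.card V = p ^ k) (hVX : V ≤ X)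
    (hX : Nat.card X = p ^ k * r) (hr : ¬ p ∣ r) : ∃ S : Sylow p X, (S : Subgroup X) = V.subgroupOf X :=
  ⟨Sylow.ofCard (V.subgroupOf X) (by
    rw [card_subOf hVX, hV, hX, factorization_of_mul Fact.out rfl hr]), rfl⟩

theorem card_syl_mul {X V : Subgroup Γ} [Finite X] {p : ℕ} [Fact p.Prime] (hVX : V ≤ X) (S : Sylow p X)
    (hS : (S : Subgroup X) = V.subgroupOf X) :
    Nat.card (Sylow p X) * Nat.card ↥(X ⊓ normalizer (V : Set Γ)) = Nat.card X := by
  rw [S.card_eq_index_normalizer, ← card_subOf (inf_le_left (b := normalizer (V : Set Γ))), inf_subgroupOf_left,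
    subgroupOf_normalizer_eq hVX, ← hS]
  exact index_mul_card _

/-- The normaliser of a Sylow subgroup has index one modulo `p`. -/
theorem exists_count {X V : Subgroup Γ} [Finite X] {p k r : ℕ} (hp : p.Prime) (hV : Nat.card V = p ^ k) (hVX : V ≤ X)
    (hX : Nat.card X = p ^ k * r) (hr : ¬ p ∣ r) :
    ∃ n, n ≡ 1 [MOD p] ∧ n * Nat.card ↥(X ⊓ normalizer (V : Set Γ)) = Nat.card X := by
  have := Fact.mk hp
  obtain ⟨S, hS⟩ := exists_syl hV hVX hX hr
  exact ⟨_, card_sylow_modEq_one p X, card_syl_mul hVX S hS⟩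

/-- A `p`-subgroup that is not a Sylow subgroup grows in its normaliser. -/
theorem exists_grow {X V : Subgroup Γ} [Finite X] {p k : ℕ} (hp : p.Prime) (hV : Nat.card V = p ^ k) (hVX : V ≤ X)
    (hX : p ^ (k + 1) ∣ Nat.card X) : ∃ y ∈ X, y ∈ normalizer (V : Set Γ) ∧ y ∉ V ∧ y ^ p ∈ V := by
  have := Fact.mk hp
  obtain ⟨K, h1, h2⟩ := Sylow.exists_subgroup_card_pow_succ hX ((card_subOf hVX).trans hV)
  have h3 := ((V.subgroupOf X).subgroupOf K).card_mul_index
  rw [card_subOf h2, card_subOf hVX, hV, h1, pow_succ] at h3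
  have h4 := Nat.eq_of_mul_eq_mul_left (pow_pos hp.pos k) h3
  have h5 : ((V.subgroupOf X).subgroupOf K).Normal := normal_of_index_eq_minFac_card (by
    rw [h4, h1, hp.pow_minFac (Nat.succ_ne_zero k)])
  obtain ⟨y, hy⟩ : ∃ y : K, y ∉ (V.subgroupOf X).subgroupOf K := by
    by_contra hn
    rw [(eq_top_iff' ((V.subgroupOf X).subgroupOf K)).2 (by simpa using hn), index_top] at h4
    exact hp.one_lt.ne h4
  have := fin_of_le hVX
  refine ⟨y, y.1.2, mem_normalizer_fintype fun v hv => ?_, hy, ?_⟩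
  · exact h5.conj_mem ⟨⟨v, hVX hv⟩, h2 hv⟩ hv y
  · have h6 := pow_index_mem ((V.subgroupOf X).subgroupOf K) y
    rwa [h4] at h6

/-- Counting Sylow subgroups of order `p ^ 2` modulo `p ^ 2`. -/
theorem count_sq {X : Type*} [Group X] [Finite X] {p : ℕ} [Fact p.Prime] (Q : Sylow p X) (hQ : Nat.card Q = p ^ 2)
    {x : X} (hx : x ∈ Q) (h : ∀ q ∈ Q, q ≠ 1 → x ∉ zpowers q → centralizer {q} ≤ normalizer (Q : Set X)) :
    ∃ f t, f * p ^ 2 ≤ Nat.card (centralizer ({x} : Set X)) ∧ Nat.card (Sylow p X) = f + t * p ^ 2 := by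
  have hc : ∀ (P : Sylow p X) {y : X}, y ∈ P → (P : Subgroup X) ≤ centralizer {y} := fun P y hy z hz => by
    have := IsPGroup.isMulCommutative_of_card_eq_prime_sq (p := p) (G := P)
      ((Nat.card_congr (Sylow.equiv P Q).toEquiv).trans hQ)
    exact mem_centralizer_singleton_iff.2 (congrArg Subtype.val (mul_comm' (⟨z, hz⟩ : P) ⟨y, hy⟩))
  have hm : ∀ (P : Sylow p X) {y : X}, y ∈ Q → y • P = P → y ∈ P := fun P y hy e => by
    exact (((Q.2.to_le (zpowers_le.2 hy)).inf_normalizer_sylow P).le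
      ⟨mem_zpowers y, Sylow.smul_eq_iff_mem_normalizer.1 e⟩).2
  let T : SubMulAction Q (Sylow p X) := ⟨{P | x ∉ P}, fun q P hP e => hP (by
    have h1 : (q : X)⁻¹ * x * q ∈ (P : Subgroup X) := by simpa using (mem_pointwise_smul_iff_inv_smul_mem.1 e)
    rwa [mul_assoc, ← mem_centralizer_singleton_iff.1 (hc Q hx q.2), inv_mul_cancel_left] at h1)⟩
  have h1 : ∀ P : T, stabilizer Q P = ⊥ := fun P => (eq_bot_iff_forall _).2 fun q hq => by
    by_contra hne
    have h2 := hm P q.2 (congrArg Subtype.val hq)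
    have h3 := (hc P h2).trans (h q q.2 (fun e => hne (Subtype.ext e)) fun e => P.2 (zpowers_le.2 h2 e))
    have h4 : (P.1 : Subgroup X) ≤ Q := by
      rw [← inf_eq_left.2 h3, P.1.2.inf_normalizer_sylow Q]; exact inf_le_right
    exact P.2 ((P.1.3 Q.2 h4).le hx)
  have h2 := Nat.card_congr (selfEquivOrbitsQuotientProd h1)
  rw [Nat.card_prod, hQ] at h2
  refine ⟨Nat.card {P : Sylow p X // x ∈ P}, Nat.card (Quotient (orbitRel Q T)), ?_, ?_⟩
  · have h3 : Nat.card {P : Sylow p X // x ∈ P} ≤ Nat.card (Sylow p (centralizer ({x} : Set X))) :=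
      Nat.card_le_card_of_injective (fun P => P.1.subtype (hc P.1 P.2)) fun P R e =>
        Subtype.ext (Sylow.subtype_injective e)
    have h4 := Nat.le_of_dvd (Nat.pos_of_ne_zero index_ne_zero_of_finite) (Q.subtype (hc Q hx)).card_dvd_index
    rw [← (Q.subtype (hc Q hx) : Subgroup (centralizer ({x} : Set X))).index_mul_card, Sylow.coe_subtype,
      card_subOf (hc Q hx), hQ]
    exact Nat.mul_le_mul_right _ (h3.trans h4)
  · rw [← h2, ← Nat.card_sum]
    classical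
    exact (Nat.card_congr (Equiv.sumCompl fun P : Sylow p X => x ∈ P)).symm

/-- Subgroups of the order of the Hall–Janko group. -/
theorem five_main {H Q N X : Subgroup Γ} (hQ : Nat.card Q = 25) (hN : H ⊓ normalizer (Q : Set Γ) = N)
    (hNc : Nat.card N = 300) {r : ℕ} (x : ℕ → Γ) (C : ℕ → Subgroup Γ)
    (hx : ∀ q ∈ Q, q ≠ 1 → ∃ i < r, x i ∈ zpowers q) (hC : ∀ i < r, H ⊓ centralizer {x i} = C i)
    (hCu : ∀ i < r, UB (C i) 300) (hgen : ∀ i < r, ∀ Y, Q ≤ Y → ∀ y ∈ Y, y ∈ C i → y ∉ N → C i ≤ Y)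
    (hpair : ∀ i < r, ∀ j < i, ∀ Y, C i ⊓ N ≤ Y → C j ⊓ N ≤ Y → Nat.card Y ≠ 50)
    (hX : X ≤ H) (hc : Nat.card X = 604800) (hQX : Q ≤ X) : N ≤ X ∧ ∃ i < r, C i ≤ X := by
  have : Finite X := Nat.finite_of_card_ne_zero (by omega)
  have : Finite N := Nat.finite_of_card_ne_zero (by omega)
  have := Fact.mk Nat.prime_five
  obtain ⟨S, hS⟩ := exists_syl (p := 5) (k := 2) (r := 24192) hQ hQX hc (by norm_num)
  have h1 := card_syl_mul hQX S hS
  have h2 : X ⊓ normalizer (Q : Set Γ) ≤ N := hN ▸ inf_le_inf_right _ hX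
  have h3 := card_dvd_of_le h2
  have h4 := card_dvd_of_le (le_inf hQX le_normalizer)
  have h5 := card_sylow_modEq_one 5 X
  rw [hc] at h1
  rw [hNc] at h3
  rw [hQ] at h4
  have h6 : Nat.card ↥(X ⊓ normalizer (Q : Set Γ)) = 50 ∧ Nat.card (Sylow 5 X) = 12096 ∨
      Nat.card ↥(X ⊓ normalizer (Q : Set Γ)) = 300 ∧ Nat.card (Sylow 5 X) = 2016 := by
    obtain ⟨d, hd⟩ := h4
    rw [hd] at h1 h3 ⊢
    have h7 : d ∣ 12 := Nat.dvd_of_mul_dvd_mul_left (by norm_num : 0 < 25) h3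
    have h8 := Nat.le_of_dvd (by norm_num) h7
    unfold Nat.ModEq at h5
    interval_cases d <;> omega
  have key : ∀ i < r, x i ∈ Q → ∃ j < r, j ≠ i ∧ x j ∈ Q ∧ C j ≤ X := fun i hi hq => by
    by_contra hn
    obtain ⟨f, t, a1, a2⟩ := count_sq S (by rw [hS, card_subOf hQX, hQ]; rfl) (x := ⟨x i, hQX hq⟩)
      (show (⟨x i, hQX hq⟩ : X) ∈ (S : Subgroup X) from hS ▸ hq) fun q hq' hne hz y hy => by
        have hq2 : (q : Γ) ∈ Q := show q ∈ Q.subgroupOf X from hS ▸ hq'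
        obtain ⟨j, hj, k, hk⟩ := hx q hq2 fun e => hne (Subtype.ext e)
        by_contra hy'
        refine hn ⟨j, hj, fun e => hz ⟨k, Subtype.ext (by simpa [e] using hk)⟩, hk ▸ Q.zpow_mem hq2 k,
          hgen j hj X hQX y y.2 ?_ fun e => hy' ?_⟩
        · rw [← hC j hj, ← hk]
          exact ⟨hX y.2, mem_centralizer_singleton_iff.2 (Commute.zpow_right
            (congrArg Subtype.val (mem_centralizer_singleton_iff.1 hy)) k)⟩
        · show y ∈ normalizer ((S : Subgroup X) : Set X)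
          rw [hS, ← subgroupOf_normalizer_eq hQX]
          exact (hN.ge e).2
    have a3 : Nat.card (centralizer ({⟨x i, hQX hq⟩} : Set X)) ≤ 300 := by
      rw [← card_map_of_injective X.subtype_injective]
      refine ((hCu i hi).mono ?_).2
      rintro _ ⟨y, hy, rfl⟩
      rw [← hC i hi]
      exact ⟨hX y.2, mem_centralizer_singleton_iff.2 (congrArg Subtype.val (mem_centralizer_singleton_iff.1 hy))⟩
    omega
  obtain ⟨q, hq⟩ : ∃ q : Q, q ≠ 1 := by
    have := fin_of_le hQX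
    have : Nontrivial Q := Finite.one_lt_card_iff_nontrivial.1 (by omega)
    exact exists_ne 1
  obtain ⟨i0, a0, k, hk⟩ := hx q q.2 fun e => hq (Subtype.ext e)
  obtain ⟨i, a1, -, a2, a3⟩ := key i0 a0 (hk ▸ Q.zpow_mem q.2 k)
  obtain ⟨j, a4, a5, -, a6⟩ := key i a1 a2
  have a7 : ∀ i, C i ≤ X → C i ⊓ N ≤ X ⊓ normalizer (Q : Set Γ) := fun i h => inf_le_inf h (hN ▸ inf_le_right)
  refine ⟨?_, i, a1, a3⟩
  rcases h6 with h6 | h6
  · rcases lt_or_gt_of_ne a5 with e | e
    · exact absurd h6.1 (hpair i a1 j e _ (a7 i a3) (a7 j a6))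
    · exact absurd h6.1 (hpair j a4 i e _ (a7 j a6) (a7 i a3))
  · exact (eq_of_le_of_card_ge h2 (by rw [h6.1, hNc])).ge.trans inf_le_left

/-- A subgroup of order prime to the index of a normal subgroup lies in it. -/
theorem le_of_coprime_index {N L Y : Subgroup Γ} (hn : N ≤ normalizer (L : Set Γ)) (hL : L ≤ N) (hY : Y ≤ N) {a b : ℕ}
    (h0 : 0 < a) (ha : Nat.card L = a) (hb : Nat.card N = a * b) (hc : (Nat.card Y).Coprime b) : Y ≤ L := fun y hy => by
  have := (normal_subgroupOf_iff_le_normalizer hL).2 hn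
  have h1 := (L.subgroupOf N).card_mul_index
  rw [card_subOf hL, ha, hb] at h1
  have h2 : y ^ b ∈ L := by
    have := pow_index_mem (L.subgroupOf N) ⟨y, hY hy⟩
    rwa [Nat.eq_of_mul_eq_mul_left h0 h1] at this
  have h3 : (orderOf y).Coprime b := hc.coprime_dvd_left (Y.orderOf_dvd_natCard hy)
  obtain ⟨k, hk⟩ := exists_pow_eq_self_of_coprime h3.symm
  exact hk ▸ L.pow_mem h2 k

/-- Subgroups of order `15600`. -/
theorem thirteen_main {H A N L V X : Subgroup Γ} (hA : Nat.card A = 13) (hN : H ⊓ normalizer (A : Set Γ) = N)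
    (hNc : Nat.card N = 156) (hL : Nat.card L = 52) (hLN : L ≤ N) (hn : N ≤ normalizer (L : Set Γ))
    (hV : Nat.card V = 4) (hVL : V ≤ L) (hX : X ≤ H) (hc : Nat.card X = 15600) (hAX : A ≤ X) :
    L ≤ X ∧ ∃ y ∈ X, y ∈ normalizer (V : Set Γ) ∧ y ∉ V ∧ y ^ 2 ∈ V := by
  have : Finite X := Nat.finite_of_card_ne_zero (by omega)
  have : Finite L := Nat.finite_of_card_ne_zero (by omega)
  obtain ⟨n, h5, h1⟩ := exists_count (p := 13) (k := 1) (r := 1200) (by norm_num) hA hAX hc (by norm_num)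
  have h2 : X ⊓ normalizer (A : Set Γ) ≤ N := hN ▸ inf_le_inf_right _ hX
  have h3 := card_dvd_of_le h2
  have h4 := card_dvd_of_le (le_inf hAX le_normalizer)
  rw [hc] at h1
  rw [hNc] at h3
  rw [hA] at h4
  have h6 : Nat.card ↥(X ⊓ normalizer (A : Set Γ)) = 52 := by
    obtain ⟨d, hd⟩ := h4
    rw [hd] at h1 h3 ⊢
    have h7 : d ∣ 12 := Nat.dvd_of_mul_dvd_mul_left (by norm_num : 0 < 13) h3
    have h8 := Nat.le_of_dvd (by norm_num) h7
    unfold Nat.ModEq at h5
    interval_cases d <;> omega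
  have h7 : L ≤ X := (eq_of_le_of_card_ge (le_of_coprime_index hn hLN h2 (a := 52) (b := 3) (by norm_num) hL hNc
    (by rw [h6]; norm_num)) (by rw [h6, hL])).ge.trans inf_le_left
  exact ⟨h7, exists_grow (k := 2) Nat.prime_two hV (hVL.trans h7) (by rw [hc]; norm_num)⟩

/-- The orbit of a point fixed by a subgroup divides the index. -/
theorem ncard_orbit_dvd {Y : Type*} [MulAction Γ Y] {U X : Subgroup Γ} {p : Y} {u r : ℕ} (h0 : 0 < u)
    (hU : Nat.card U = u) (hX : Nat.card X = u * r) (hUX : U ≤ X) (hp : U ≤ stabilizer Γ p) : (orbit X p).ncard ∣ r := by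
  obtain ⟨d, hd⟩ := card_dvd_of_le (le_inf hUX hp)
  have := card_eq_orbit_mul X p
  rw [hd, hU, hX, mul_left_comm] at this
  exact ⟨d, Nat.eq_of_mul_eq_mul_left h0 this⟩

end CL.R3
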