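/-
Certificates for rank three groups: orbits by schedules, branching over cosets, invariant sets as unions of orbits,
and upper bounds for the automorphism group of an orbital graph by refinement.
-/
import Cfsg.Agent.Comp.Rank3
import Cfsg.Agent.Comp.Rank3Syl
import Cfsg.Agent.Spor.PGConj
import Cfsg.Agent.Spor.PGSearch
import Cfsg.Agent.Spor.MxRefine

set_option autoImplicit false

namespace CL.R3

open MulAction Subgroup CL.PG
open CL.Mx (force forceL force_eq forceL_eq cls addAll valAt)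

variable {G X : Type*} [Group G] [MulAction G X]

/-- The mask grown from the point `q.1` by the schedule `q.2` of indices into `l`. -/
noncomputable def clo (P : Par) (ns : List Net) (l : List (List ℕ)) (q : ℕ × List ℕ) : ℕ :=
  grow P.N ns (mapL (selW l) q.2) (bit q.1)

/-- The point is coded. -/
def ltB (P : Par) (a : ℕ) : Bool := Nat.ble (Nat.succ a) P.n

/-- An orbit whose length does not divide `m`. -/
noncomputable def badB (P : Par) (ns : List Net) (l : List (List ℕ)) (m : ℕ) (q : ℕ × List ℕ) : Bool :=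
  force (clo P ns l q) fun M => bnd (ltB P q.1) (bnd (invB P.N ns l M) (bnot (Nat.beq (Nat.mod m (pop P.L P.n M)) 0)))

/-- The word `w` moves a point out of its orbit. -/
noncomputable def outB (P : Par) (ns : List Net) (l : List (List ℕ)) (w : List ℕ) (q : ℕ × List ℕ) : Bool :=
  force (clo P ns l q) fun M => bnd (ltB P q.1) (bnd (invB P.N ns l M) (bnot (tb (gathW 0 P.N ns w M) q.1)))

/-- An orbit with at least `s` points. -/
noncomputable def bigB (P : Par) (ns : List Net) (l : List (List ℕ)) (s : ℕ) (q : ℕ × List ℕ) : Bool :=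
  bnd (ltB P q.1) (Nat.ble s (pop P.L P.n (clo P ns l q)))

/-- Disjunction over a list. -/
noncomputable def anyL {α : Type} (f : α → Bool) (l : List α) : Bool :=
  List.rec (motive := fun _ => Bool) false (fun a _ ih => bor (f a) ih) l

theorem anyL_spec {α : Type} {f : α → Bool} : ∀ {l : List α}, anyL f l = true → ∃ a ∈ l, f a = true
  | [], h => by cases h
  | a :: l, h => (bor_iff.1 (show bor (f a) (anyL f l) = true from h)).elim (fun h => ⟨a, by simp, h⟩)
    fun h => let ⟨b, hb, h⟩ := anyL_spec h; ⟨b, List.mem_cons_of_mem _ hb, h⟩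

/-- The union of a list of masks. -/
noncomputable def orL (l : List ℕ) : ℕ :=
  List.rec (motive := fun _ => ℕ) 0 (fun a _ ih => Nat.lor a ih) l

theorem testBit_orL (i : ℕ) : ∀ l : List ℕ, (orL l).testBit i = true ↔ ∃ a ∈ l, a.testBit i = true
  | [] => by simp [orL]
  | a :: l => by
    rw [show orL (a :: l) = a ||| orL l from rfl, Nat.testBit_or, Bool.or_eq_true, testBit_orL i l]
    simp

/-- The test holds for the unions of `acc` with all sublists of the masks. -/
noncomputable def allSub (f : ℕ → Bool) (ms : List ℕ) : ℕ → Bool :=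
  List.rec (motive := fun _ => ℕ → Bool) f (fun m _ ih acc => bnd (ih acc) (force (Nat.lor acc m) ih)) ms

theorem allSub_spec {e : ℕ → X} {n : ℕ} {f : ℕ → Bool} {T : Set X} : ∀ {ms : List ℕ} {acc : ℕ},
    (∀ m ∈ ms, mset e n m ⊆ T ∨ Disjoint (mset e n m) T) → mset e n acc ⊆ T →
    T ⊆ mset e n acc ∪ mset e n (orL ms) → allSub f ms acc = true → ∃ μ, mset e n μ = T ∧ f μ = true
  | [], acc, _, h1, h2, h => ⟨acc, h1.antisymm (by simpa [orL, mset_zero] using h2), h⟩
  | m :: ms, acc, h0, h1, h2, h => by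
    obtain ⟨h3, h4⟩ := bnd_iff.1 (show bnd (allSub f ms acc) (force (Nat.lor acc m) (allSub f ms)) = true from h)
    rw [force_eq] at h4
    rw [show orL (m :: ms) = Nat.lor m (orL ms) from rfl, mset_lor] at h2
    have h5 : ∀ m' ∈ ms, mset e n m' ⊆ T ∨ Disjoint (mset e n m') T := fun m' hm => h0 m' (List.mem_cons_of_mem _ hm)
    rcases h0 m List.mem_cons_self with h6 | h6
    · exact allSub_spec h5 (by rw [mset_lor]; exact Set.union_subset h1 h6) (by rwa [mset_lor, Set.union_assoc]) h4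
    · exact allSub_spec h5 h1 (fun x hx => (h2 hx).imp_right fun h7 =>
        h7.resolve_left fun h8 => Set.disjoint_left.1 h6 h8 hx) h3

/-- The orbits given by `qs` cover the mask `S`, and the test holds for all their unions. -/
noncomputable def subsB (P : Par) (ns : List Net) (l : List (List ℕ)) (qs : List (ℕ × List ℕ)) (S : ℕ)
    (f : ℕ → Bool) : Bool :=
  bnd (allL (fun q => ltB P q.1) qs) (forceL (mapL (clo P ns l) qs) fun ms => bnd (subM S (orL ms)) (allSub f ms 0))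

/-- A coset representative: its square is outside `lV`, or it generates too much with `l`, or it is listed. -/
noncomputable def nodeB (P : Par) (ns : List Net) (l lV : List (List ℕ)) (m : ℕ) (good : List (List ℕ))
    (p : List ℕ × ℕ × ℕ × List ℕ) : Bool :=
  Nat.rec (motive := fun _ => Bool) (outB P ns lV (app p.1 p.1) p.2.2) (fun k _ =>
    Nat.rec (motive := fun _ => Bool) (badB P ns (p.1 :: l) m p.2.2) (fun _ _ => anyL (eqL p.1) good) k) p.2.1

/-- A coset representative lies in the subgroup of the letter mask or generates a long orbit with `l`. -/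
noncomputable def genB (P : Par) (ns : List Net) (S : ℕ) (l : List (List ℕ)) (s : ℕ) (p : List ℕ × ℕ × List ℕ) :
    Bool := bor (inM S p.1) (bigB P ns (p.1 :: l) s p.2)

/-- The relations `u ^ k = x i`. -/
noncomputable def pwR (xs us : List (List ℕ)) (F : List (ℕ × ℕ)) : List (List ℕ × List ℕ) :=
  mapL (fun p => (powW p.1 p.2.2, nth [] xs p.2.1)) (zp (0, 0) us F)

/-- For all pairs, words in `Cs i` and `lN` together with words in `Cs j` and `lN` have a bad orbit. -/
noncomputable def pairB (P : Par) (ns : List Net) (D : List (ℕ × List ℕ)) (lN : List (List ℕ))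
    (Rs Cs : List (List (List ℕ))) (m r : ℕ) (qs : List (List (ℕ × List ℕ))) : Bool :=
  allN (fun i => bnd (bnd (leB D (nth [] Rs i) (nth [] Cs i)) (leB D (nth [] Rs i) lN))
    (allN (fun j => badB P ns (app (nth [] Rs i) (nth [] Rs j)) m (nth (0, []) (nth [] qs i) j)) i)) r

/-- The test for orbits of an overgroup of a Sylow subgroup. -/
noncomputable def oddF (P : Par) (p r M : ℕ) (μ : ℕ) : Bool :=
  bor (bnot (tb μ p)) (bor (bnot (Nat.beq (Nat.mod r (pop P.L P.n μ)) 0)) (bor (Nat.beq μ (bit p)) (Nat.beq μ M)))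

/-- The test for the row of a neighbour of the base point. -/
noncomputable def rowF (P : Par) (k pos neg out T : ℕ) (μ : ℕ) : Bool :=
  bor (bnot (subM pos μ)) (bor (bnot (Nat.beq (Nat.land neg μ) 0)) (bor (subM μ out)
    (bor (Nat.beq μ T) (bnot (Nat.beq (pop P.L P.n μ) k)))))

/-- The rows of the two base points are determined. -/
noncomputable def detB (P : Par) (ns : List Net) (D : List (ℕ × List ℕ)) (lH lK lP : List (List ℕ))
    (qK qP : List (ℕ × List ℕ)) (k a b c y z : ℕ) (w : List ℕ) (Δ T T' : ℕ) : Bool :=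
  bnd (bnd (bnd (leB D (w :: app lK lP) lH) (bnd (P.fixP ns lK b) (P.fixP ns lP c)))
    (bnd (bnd (ltB P a) (bnd (ltB P y) (ltB P z))) (bnd (bnd (ptW P.N ns w b y) (ptW P.N ns w z c))
      (bnd (bnot (tb T z)) (bnd (bnot (tb Δ c)) (Nat.ble 1 k))))))
    (bnd (subsB P ns lK qK (ones P.n) (rowF P k (bit a) (bit b) (Nat.lor (bit a) Δ) T))
      (subsB P ns lP qP (ones P.n) (rowF P k 0 (Nat.lor (bit a) (Nat.lor (bit c) (bit y))) 0 T')))

section
variable {P : Par} {e : ℕ → X} {gs : List G} {ns : List Net} {D : List (ℕ × List ℕ)}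
  {chk : List (List ℕ × List ℕ) → Bool} (c : Ctx P e gs ns D chk)
include c

theorem clo_sub {l : List (List ℕ)} {q : ℕ × List ℕ} (h : ltB P q.1 = true) :
    mset e P.n (clo P ns l q) ⊆ orbit (subW gs l) (e q.1) := fun x hx => by
  obtain ⟨g, hg, y, hy, rfl⟩ := c.good.grow_spec c.ok.1 (H := subW gs l) _ _ (fun w hw => by
    obtain ⟨c, _, rfl⟩ := of_mem_mapL hw
    exact selW_mem (fun _ => mem_subW) c) x hx
  rw [mset_bit e (blt_spec h), Set.mem_singleton_iff] at hy
  exact ⟨⟨g, hg⟩, by rw [hy]; rfl⟩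

theorem clo_eq {l : List (List ℕ)} {q : ℕ × List ℕ} (h : ltB P q.1 = true)
    (h' : invB P.N ns l (clo P ns l q) = true) : orbit (subW gs l) (e q.1) = mset e P.n (clo P ns l q) := by
  refine Set.Subset.antisymm ?_ (clo_sub c h)
  rintro _ ⟨g, rfl⟩
  exact (c.good.mem_clo c.ok.1 h' _).2 ⟨g, g.2, e q.1, by rw [mset_bit e (blt_spec h)]; rfl, rfl⟩

theorem ncard_pop (m : ℕ) : (mset e P.n m).ncard = pop P.L P.n m := by rw [ncard_mset c.inj, pop_eq c.ok.2.1]

theorem bad {l : List (List ℕ)} {m : ℕ} {q : ℕ × List ℕ} (h : badB P ns l m q = true) {Y : Subgroup G}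
    (hl : subW gs l ≤ Y) : Nat.card Y ≠ m := fun hm => by
  rw [badB, force_eq, bnd_iff, bnd_iff, bnot_iff] at h
  have h1 := (Dvd.intro _ (card_eq_orbit_mul (subW gs l) (e q.1)).symm).trans (card_dvd_of_le hl)
  rw [clo_eq c h.1 h.2.1, ncard_pop c, hm] at h1
  exact Nat.ne_of_beq_eq_false h.2.2 (Nat.mod_eq_zero_of_dvd h1)

theorem out {l : List (List ℕ)} {w : List ℕ} {q : ℕ × List ℕ} (h : outB P ns l w q = true) :
    wordG gs w ∉ subW gs l := fun hw => by
  rw [outB, force_eq, bnd_iff, bnd_iff, bnot_iff, tb_eq] at h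
  have h1 : wordG gs w • e q.1 ∈ orbit (subW gs l) (e q.1) := ⟨⟨_, hw⟩, rfl⟩
  rw [clo_eq c h.1 h.2.1, ← c.good.mem_mset_gathW c.ok.1, mem_mset c.inj (blt_spec h.1), h.2.2] at h1
  cases h1

theorem big {l : List (List ℕ)} {s : ℕ} {q : ℕ × List ℕ} (h : bigB P ns l s q = true) : LB (subW gs l) s := by
  rw [bigB, bnd_iff, ← ncard_pop c] at h
  intro hf
  exact (Nat.le_of_ble_eq_true h.2).trans ((Nat.le_mul_of_pos_right _ one_pos).trans
    (lb_of_orbit bot_le (clo_sub c h.1) (LB.one ⊥) hf))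

theorem subs_spec {l : List (List ℕ)} {qs : List (ℕ × List ℕ)} {S : ℕ} {f : ℕ → Bool}
    (h : subsB P ns l qs S f = true) {T : Set X} (hT : ∀ g ∈ subW gs l, ∀ x ∈ T, g • x ∈ T) (hS : T ⊆ mset e P.n S) :
    ∃ μ, mset e P.n μ = T ∧ f μ = true := by
  rw [subsB, forceL_eq, bnd_iff, bnd_iff] at h
  refine allSub_spec (fun m hm => ?_) (by simp [mset_zero]) (fun x hx => Or.inr (mset_subM h.2.1 (hS hx))) h.2.2
  obtain ⟨q, hq, rfl⟩ := of_mem_mapL hm
  refine or_iff_not_imp_right.2 fun hd x hx => ?_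
  obtain ⟨y, h1, h2⟩ := Set.not_disjoint_iff.1 hd
  obtain ⟨g, rfl⟩ := clo_sub c (allL_spec h.1 q hq) h1
  obtain ⟨u, rfl⟩ := clo_sub c (allL_spec h.1 q hq) hx
  have := hT _ (u * g⁻¹).2 _ h2
  rwa [show ((u * g⁻¹ : subW gs l) : G) • (fun m : subW gs l => m • e q.1) g = (u * g⁻¹) • g • e q.1 from rfl,
    mul_smul, inv_smul_smul] at this

theorem branch {l lV lN us good : List (List ℕ)} {F : List (List (ℕ × List ℕ))} {r m : ℕ}
    {qs : List (ℕ × ℕ × List ℕ)} (hR : Rels gs (schR lN us F)) (hc : schB D lN lV us F r = true)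
    (hq : allL (nodeB P ns l lV m good) (zp (0, 0, []) us qs) = true) {Y : Subgroup G} (hl : subW gs l ≤ Y)
    (hV : subW gs lV ≤ Y) (hm : Nat.card Y = m) {y : G} (hy : y ∈ Y) (hN : y ∈ subW gs lN)
    (hn : y ∈ normalizer (subW gs lV : Set G)) (h1 : y ∉ subW gs lV) (h2 : y ^ 2 ∈ subW gs lV) :
    ∃ u ∈ good, wordG gs u ∈ Y := by
  obtain ⟨u, hu, h3⟩ := sch_cover c.defs hR hc y hN
  rcases List.mem_cons.1 hu with rfl | hu
  · exact absurd (by simpa using h3) h1
  have h4 : wordG gs u ∈ Y := by simpa using Y.mul_mem hy (Y.inv_mem (hV h3))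
  obtain ⟨⟨k, q⟩, hq'⟩ := exists_mem_zp (0, 0, []) qs hu
  have h5 := allL_spec hq _ hq'
  match k, h5 with
  | 0, h5 =>
    refine absurd ?_ (out c h5)
    have h6 := (mem_normalizer_iff''.1 hn _).1 (inv_mem h3)
    have := mul_mem (mul_mem h2 h6) (inv_mem h3)
    rw [wordG_app]
    convert this using 1
    rw [pow_two]; group
  | 1, h5 =>
    exact absurd hm (bad c h5 (subW_le.2 fun w hw => (List.mem_cons.1 hw).elim (fun e => e ▸ h4)
      fun hw => hl (mem_subW hw)))
  | k + 2, h5 =>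
    obtain ⟨v, hv, h6⟩ := anyL_spec (show anyL (eqL u) good = true from h5)
    exact ⟨v, hv, eqL_spec h6 ▸ h4⟩

theorem gen {lC lQ lN us : List (List ℕ)} {F : List (List (ℕ × List ℕ))} {r m s : ℕ} {qs : List (ℕ × List ℕ)}
    (hR : Rels gs (schR lC us F)) (hc : schB D lC lQ us F r = true) (hU : UB (subW gs lQ) m) (hs : r * m = s)
    (hq : bnd (bnd (leB D lQ lC) (leB D lQ lN)) (allL (genB P ns (memM D lN) lQ s) (zp (0, []) us qs)) = true) :
    UB (subW gs lC) s ∧ ∀ Y, subW gs lQ ≤ Y → ∀ y ∈ Y, y ∈ subW gs lC → y ∉ subW gs lN → subW gs lC ≤ Y := by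
  rw [bnd_iff, bnd_iff] at hq
  have h0 : UB (subW gs lC) s := hs ▸ c.sch_step hU hR hc
  refine ⟨h0, fun Y hY y hy hC hN => ?_⟩
  obtain ⟨u, hu, h3⟩ := sch_cover c.defs hR hc y hC
  have h4 : wordG gs u ∉ subW gs lN := fun e => hN (by simpa using mul_mem e (c.le hq.1.2 h3))
  rcases List.mem_cons.1 hu with rfl | hu
  · exact absurd (one_mem _) h4
  obtain ⟨q, hq'⟩ := exists_mem_zp (0, []) qs hu
  have h5 := (bor_iff.1 (allL_spec hq.2 _ hq')).resolve_left fun e => h4 (c.defs.mem e)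
  have h6 : ∀ Z : Subgroup G, y ∈ Z → subW gs lQ ≤ Z → subW gs (u :: lQ) ≤ Z := fun Z h1 h2 =>
    subW_le.2 fun w hw => (List.mem_cons.1 hw).elim (fun e => by simpa [e] using Z.mul_mem h1 (Z.inv_mem (h2 h3)))
      fun hw => h2 (mem_subW hw)
  exact (h0.eq_of_lb (big c h5) (h6 _ hC (c.le hq.1.1))).ge.trans (h6 _ hy hY)

theorem pows {lQ us xs : List (List ℕ)} {F : List (List (ℕ × List ℕ))} {r t : ℕ} {E : List (ℕ × ℕ)}
    (hR : Rels gs (schR lQ us F)) (hc : schB D lQ [] us F r = true) (hE : Rels gs (pwR xs us E))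
    (ht : allL (fun p => Nat.ble (Nat.succ p.2.1) t) (zp (0, 0) us E) = true) :
    UB (subW gs lQ) r ∧ ∀ q ∈ subW gs lQ, q ≠ 1 → ∃ i < t, wordG gs (nth [] xs i) ∈ zpowers q := by
  refine ⟨by simpa using c.sch_step (UB.nil gs) hR hc, fun q hq hne => ?_⟩
  obtain ⟨u, hu, h3⟩ := sch_cover c.defs hR hc q hq
  rw [subW_nil, mem_bot, inv_mul_eq_one] at h3
  rcases List.mem_cons.1 hu with rfl | hu
  · exact absurd h3.symm hne
  obtain ⟨p, hp⟩ := exists_mem_zp (0, 0) E hu
  have := hE _ (mem_mapL (f := fun p : List ℕ × ℕ × ℕ => (powW p.1 p.2.2, nth [] xs p.2.1)) hp)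
  rw [wordG_powW, h3] at this
  exact ⟨p.1, blt_spec (allL_spec ht _ hp), this ▸ npow_mem_zpowers q _⟩

theorem odd {H : Subgroup G} {lU : List (List ℕ)} {qs : List (ℕ × List ℕ)} {p r M S u : ℕ}
    (h : bnd (P.fixP ns lU p) (subsB P ns lU qs S (oddF P p r M)) = true) (hS : orbit H (e p) = mset e P.n S)
    (h0 : 0 < u) (hU : Nat.card (subW gs lU) = u) {Y : Subgroup G} (hY : Y ≤ H) (hc : Nat.card Y = u * r)
    (hl : subW gs lU ≤ Y) : Y ≤ stabilizer G (e p) ∨ Y ≤ sstab G (mset e P.n M) := by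
  rw [bnd_iff] at h
  have hp := blt_spec (bnd_iff.1 h.1).1
  obtain ⟨μ, h1, h2⟩ := subs_spec c h.2 (T := orbit Y (e p)) (fun g hg x hx => (smul_mem_orb (hl hg)).2 hx)
    (hS ▸ fun x ⟨g, hg⟩ => ⟨⟨g, hY g.2⟩, hg⟩)
  rw [oddF, bor_iff, bor_iff, bor_iff, bnot_iff, bnot_iff, tb_eq, ← ncard_pop c, h1] at h2
  rcases h2 with h2 | h2 | h2 | h2
  · have := mem_orbit_self (M := Y) (e p)
    rw [← h1, mem_mset c.inj hp, h2] at this
    cases this
  · exact absurd (Nat.mod_eq_zero_of_dvd (ncard_orbit_dvd h0 hU hc hl (c.le_stab h.1))) (Nat.ne_of_beq_eq_false h2)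
  · rw [Nat.eq_of_beq_eq_true h2, mset_bit e hp] at h1
    exact Or.inl fun g hg => h1.ge ⟨⟨g, hg⟩, rfl⟩
  · rw [Nat.eq_of_beq_eq_true h2] at h1
    exact Or.inr fun g hg x => h1 ▸ smul_mem_orb hg

theorem odd' {H : Subgroup G} {lU : List (List ℕ)} {qs : List (ℕ × List ℕ)} {p r S u : ℕ}
    (h : bnd (P.fixP ns lU p) (subsB P ns lU qs S (oddF P p r (bit p))) = true) (hS : orbit H (e p) = mset e P.n S)
    (h0 : 0 < u) (hU : Nat.card (subW gs lU) = u) {Y : Subgroup G} (hY : Y ≤ H) (hc : Nat.card Y = u * r)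
    (hl : subW gs lU ≤ Y) : FixQ H (e p) Y :=
  ⟨_, mem_orbit_self _, (odd c h hS h0 hU hY hc hl).elim id fun h1 g hg => by
    rw [mset_bit e (blt_spec (bnd_iff.1 (bnd_iff.1 h).1).1)] at h1
    exact (h1 hg _).2 rfl⟩

theorem good {H : Subgroup G} {l : List (List ℕ)} {b p m S : ℕ} (hL : LB (subW gs l) m) (h0 : 0 < m)
    (h : bnd (P.fixP ns l p) (tb S p) = true) (hS : orbit H (e b) = mset e P.n S) {Y : Subgroup G}
    (hc : Nat.card Y = m) (hl : subW gs l ≤ Y) : FixQ H (e b) Y := by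
  rw [bnd_iff, tb_eq, ← mem_mset c.inj (blt_spec (bnd_iff.1 h.1).1), ← hS] at h
  exact ⟨_, h.2, ((UB.of_card hc h0).eq_of_lb hL hl).ge.trans (c.le_stab h.1)⟩

theorem pairs {lN : List (List ℕ)} {Rs Cs : List (List (List ℕ))} {m r : ℕ} {qs : List (List (ℕ × List ℕ))}
    (h : pairB P ns D lN Rs Cs m r qs = true) : ∀ i < r, ∀ j < i, ∀ Y, subW gs (nth [] Cs i) ⊓ subW gs lN ≤ Y →
      subW gs (nth [] Cs j) ⊓ subW gs lN ≤ Y → Nat.card Y ≠ m := fun i hi j hj Y h1 h2 => by
  have a1 := bnd_iff.1 (allN_spec h i hi)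
  have a2 := bnd_iff.1 (bnd_iff.1 (allN_spec h j (hj.trans hi))).1
  have a3 := bnd_iff.1 a1.1
  refine bad c (allN_spec a1.2 j hj) ?_
  rw [subW_app]
  exact sup_le ((le_inf (c.le a3.1) (c.le a3.2)).trans h1) ((le_inf (c.le a2.1) (c.le a2.2)).trans h2)

theorem rk_of (hs : ∀ x, ∃ i < P.n, e i = x) {lS sc : List (List ℕ)} {H : Subgroup G} {a k l : ℕ} {b d : X}
    (hF : Faithful e P.n (subW gs lS)) (h : P.covO ns D lS sc [a] (ones P.n) = true)
    (hH : subW gs lS ⊓ stabilizer G (e a) = H) (hb : (orbit H b).ncard = k) (hd : (orbit H d).ncard = l)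
    (hn : P.n = 1 + k + l) (ne : k ≠ l) (k1 : 1 < k) (l1 : 1 < l) : Rk (subW gs lS) H (e a) b d k l := by
  refine ⟨fun g hg h1 => hF g hg fun i _ => h1 _, fun x => ?_, hH, hb, hd, ?_, ne, k1, l1⟩
  · obtain ⟨p, hp, -, h1⟩ := c.cover h (mem_mset_ones.2 (hs x))
    exact List.mem_singleton.1 hp ▸ h1
  · rw [← Set.ncard_univ, ← Set.eq_univ_of_forall fun x => mem_mset_ones.2 (hs x), ncard_mset c.inj, cnt_ones, hn]

theorem bigQ {H : Subgroup G} {l : List (List ℕ)} {qs : List (ℕ × List ℕ)} {b k t S : ℕ}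
    (h : subsB P ns l qs S (fun μ => bor (Nat.beq μ 0) (Nat.ble (Nat.succ (Nat.mul k k)) (Nat.mul (pop P.L P.n μ) t))) =
      true) (hS : orbit H (e b) = mset e P.n S) (hl : subW gs l ≤ H) : BigQ H (e b) k t (subW gs l) := fun p hp => by
  obtain ⟨μ, h1, h2⟩ := subs_spec c h (T := orbit (subW gs l) p) (fun g hg x hx => (smul_mem_orb hg).2 hx)
    (hS ▸ fun x ⟨g, hg⟩ => hg ▸ (smul_mem_orb (hl g.2)).2 hp)
  rw [bor_iff, ← ncard_pop c, h1] at h2
  refine blt_spec (h2.resolve_left fun h3 => ?_)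
  rw [Nat.eq_of_beq_eq_true h3, mset_zero] at h1
  exact h1.ge (mem_orbit_self p)

theorem row_spec {k pos neg out T μ : ℕ} (h : rowF P k pos neg out T μ = true) (h0 : (mset e P.n μ).ncard = k)
    (h1 : ∀ i, pos.testBit i = true → μ.testBit i = true) (h2 : ∀ i, neg.testBit i = true → μ.testBit i = false)
    (h3 : ¬ mset e P.n μ ⊆ mset e P.n out) : μ = T := by
  rw [rowF, bor_iff, bor_iff, bor_iff, bor_iff, bnot_iff, bnot_iff, bnot_iff, ← ncard_pop c, h0] at h
  rcases h with h | h | h | h | h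
  · refine absurd (Nat.eq_of_testBit_eq fun i => ?_) (Nat.ne_of_beq_eq_false h)
    rw [land_eq, Nat.testBit_and]
    cases hi : pos.testBit i
    · rfl
    · rw [h1 i hi]; rfl
  · refine absurd (Nat.eq_of_testBit_eq fun i => ?_) (Nat.ne_of_beq_eq_false h)
    rw [land_eq, Nat.testBit_and, Nat.zero_testBit]
    cases hi : neg.testBit i
    · rfl
    · rw [h2 i hi]; rfl
  · exact absurd (mset_subM h) h3
  · exact Nat.eq_of_beq_eq_true h
  · exact absurd rfl (Nat.ne_of_beq_eq_false h)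

theorem det (hs : ∀ x, ∃ i < P.n, e i = x) {lH lK lP : List (List ℕ)} {qK qP : List (ℕ × List ℕ)}
    {k a b d y z : ℕ} {w : List ℕ} {Δ T T' : ℕ} (h : detB P ns D lH lK lP qK qP k a b d y z w Δ T T' = true)
    (hΔ : orbit (subW gs lH) (e b) = mset e P.n Δ) (R : X → X → Prop)
    (hR : Gr (subW gs lH) (e a) (orbit (subW gs lH) (e b)) k R) :
    {x | R (e b) x} = mset e P.n T ∧ {x | R (e d) x} = mset e P.n T' := by
  simp only [detB, bnd_iff, bnot_iff, tb_eq] at h
  obtain ⟨⟨⟨h1, h2, h3⟩, ⟨ha, hy, hz⟩, ⟨h4, h5⟩, h6, h7, h8⟩, h9, h10⟩ := h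
  have hb := blt_spec (bnd_iff.1 h2).1
  have hd := blt_spec (bnd_iff.1 h3).1
  have ha := blt_spec ha
  have hy := blt_spec hy
  have hz := blt_spec hz
  have a0 := subW_le.1 (c.le h1)
  have a1 : ∀ {l : List (List ℕ)} {p : ℕ}, P.fixP ns l p = true → (∀ v ∈ l, v ∈ app lK lP) →
      ∀ g ∈ subW gs l, ∀ x ∈ {x | R (e p) x}, g • x ∈ {x | R (e p) x} := fun {l p} hp hl g hg x hx => by
    have := (hR.inv g (subW_le.2 (fun v hv => a0 v (List.mem_cons_of_mem _ (hl v hv))) hg) _ _).2 hx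
    rwa [show g • e p = e p from c.le_stab hp hg] at this
  have a2 : ∀ T : Set X, T ⊆ mset e P.n (ones P.n) := fun T x _ => mem_mset_ones.2 (hs x)
  have a3 : ∀ {μ p i : ℕ}, mset e P.n μ = {x | R (e p) x} → i < P.n → (μ.testBit i = true ↔ R (e p) (e i)) :=
    fun h hi => by rw [← mem_mset c.inj hi, h]; rfl
  have a4 : ∀ {μ p i : ℕ}, mset e P.n μ = {x | R (e p) x} → i < P.n → ¬ R (e p) (e i) → μ.testBit i = false :=
    fun h hi hn => Bool.eq_false_iff.2 fun h' => hn ((a3 h hi).1 h')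
  obtain ⟨μ, b1, b2⟩ := subs_spec c h9 (a1 h2 fun v => mem_app_left _) (a2 _)
  have b3 := row_spec c b2 (b1 ▸ hR.deg _) (fun i hi => by
      rw [testBit_bit, decide_eq_true_eq] at hi
      exact hi ▸ (a3 b1 ha).2 (hR.symm _ _ ((hR.base _).2 (mem_orbit_self _))))
    (fun i hi => by
      rw [testBit_bit, decide_eq_true_eq] at hi
      exact hi ▸ a4 b1 hb (hR.irr _)) (fun hn => by
      obtain ⟨_, ⟨g, rfl⟩, x, r1, r2, r3⟩ := hR.nd
      have r4 : R (e b) ((g : G)⁻¹ • x) := (hR.inv g g.2 _ _).1 (by rwa [smul_inv_smul])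
      rw [b1, mset_lor, mset_bit e ha, ← hΔ] at hn
      rcases hn r4 with r5 | r5
      · exact r2 (by rw [← hR.fix g g.2, ← show (g : G)⁻¹ • x = e a from r5, smul_inv_smul])
      · exact r3 ((smul_mem_orb (inv_mem g.2)).1 r5))
  subst b3
  obtain ⟨ν, d1, d2⟩ := subs_spec c h10 (a1 h3 fun v => mem_app_right _) (a2 _)
  have d3 := row_spec c d2 (d1 ▸ hR.deg _) (fun i hi => by simp at hi) (fun i hi => by
      simp only [lor_eq, Nat.testBit_or, testBit_bit, Bool.or_eq_true, decide_eq_true_eq] at hi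
      rcases hi with rfl | rfl | rfl
      · refine a4 d1 ha fun r => ?_
        have := (hR.base _).1 (hR.symm _ _ r)
        rw [hΔ, mem_mset c.inj hd, h7] at this
        cases this
      · exact a4 d1 hd (hR.irr _)
      · refine a4 d1 hy fun r => ?_
        rw [← c.good.smul_eq c.ok.1 hb h4, ← c.good.smul_eq c.ok.1 hz h5, hR.inv _ (a0 w List.mem_cons_self)] at r
        rw [(a3 b1 hz).2 (hR.symm _ _ r)] at h6
        cases h6) (fun hn => by
      have := hR.deg (e d)
      rw [← d1, Set.subset_eq_empty hn (mset_zero _ _), Set.ncard_empty] at this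
      exact absurd (Nat.le_of_ble_eq_true h8) (by omega))
  exact ⟨b1.symm, d3 ▸ d1.symm⟩

theorem all_mem {b : ℕ} {l : List (List ℕ)} (h : bnd (Nat.beq (lenL ns) b) (leB D (gensW b) l) = true) :
    ∀ g ∈ gs, g ∈ subW gs l := fun g hg => by
  have h1 := c.le (bnd_iff.1 h).2
  rw [← c.good.length_eq (bnd_iff.1 h).1, subW_gensW] at h1
  exact h1 (subset_closure hg)

end

/-! ### Automorphisms of the graph -/

/-- The mask is invariant under the permutation. -/
def Iv (e : ℕ → X) (n : ℕ) (σ : Equiv.Perm X) (m : ℕ) : Prop :=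
  ∀ i < n, ∀ j < n, σ (e i) = e j → m.testBit j = m.testBit i

/-- Groups of automorphisms that keep the masks have order at most `b`. -/
def Bd (e : ℕ → X) (n : ℕ) (R : X → X → Prop) (Z : List ℕ) (b : ℕ) : Prop :=
  ∀ A ≤ aut R, (∀ σ ∈ A, ∀ m ∈ Z, Iv e n σ m) → UB A b

/-- The lower plane of `x` is the row of the point `y`, the upper plane marks `y`. -/
def RowAt (e : ℕ → X) (n N : ℕ) (R : X → X → Prop) (x y : ℕ) : Prop :=
  y < n ∧ (∀ i < N, x.testBit (1 * N + i) = decide (y = i)) ∧ ∀ i < n, x.testBit i = true ↔ R (e y) (e i)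

/-- A stack machine that moves a row around: 1000 emits, 1001 saves, 1002 restores, the rest are letters. -/
noncomputable def run (N : ℕ) (ns : List Net) (ops : List ℕ) : ℕ → List ℕ → List ℕ → List ℕ :=
  List.rec (motive := fun _ => ℕ → List ℕ → List ℕ → List ℕ) (fun _ _ acc => acc)
    (fun o _ ih x st acc => Bool.rec (motive := fun _ => List ℕ)
      (force (gath 1 N (letN ns o) x) fun x' => ih x' st acc)
      (Bool.rec (motive := fun _ => List ℕ)
        (Bool.rec (motive := fun _ => List ℕ)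
          (List.rec (motive := fun _ => List ℕ) (ih x [] acc) (fun y t _ => ih y t acc) st)
          (ih x (x :: st) acc) (Nat.beq o 1001))
        (ih x st (x :: acc)) (Nat.beq o 1000))
      (Nat.ble 1000 o)) ops

/-- The mask has at most one point. -/
def oneB (m : ℕ) : Bool := Nat.beq (Nat.land m (Nat.sub m 1)) 0

theorem oneB_lt {m i j : ℕ} (h : oneB m = true) (hi : m.testBit i = true) (hj : m.testBit j = true) : ¬ i < j :=
  fun hlt => by
  have h1 : m % 2 ^ j ≠ 0 := fun e => by simpa [e, hlt, hi] using Nat.testBit_mod_two_pow m j i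
  have h2 : (m - 1) / 2 ^ j = m / 2 ^ j := by
    have h3 := Nat.mod_lt m (Nat.two_pow_pos j)
    rw [show m - 1 = 2 ^ j * (m / 2 ^ j) + (m % 2 ^ j - 1) by have := Nat.div_add_mod m (2 ^ j); omega,
      Nat.mul_add_div (Nat.two_pow_pos j), Nat.div_eq_of_lt (a := m % 2 ^ j - 1) (by omega), add_zero]
  have h4 := congrArg (·.testBit j) (Nat.eq_of_beq_eq_true h)
  simp only [land_eq, Nat.testBit_and, hj, Nat.zero_testBit, Bool.true_and] at h4
  rw [Nat.testBit_eq_decide_div_mod_eq, show Nat.sub m 1 = m - 1 from rfl, h2, ← Nat.testBit_eq_decide_div_mod_eq,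
    hj] at h4
  cases h4

/-- The masks separate the points of `m`. -/
noncomputable def sepR (Z : List ℕ) : ℕ → Bool :=
  List.rec (motive := fun _ => ℕ → Bool) oneB
    (fun z _ ih m => bor (oneB m) (bnd (force (Nat.land m z) ih) (force (dif m z) ih))) Z

theorem sepR_spec : ∀ {Z : List ℕ} {m : ℕ}, sepR Z m = true → ∀ i j, m.testBit i = true → m.testBit j = true →
    (∀ z ∈ Z, z.testBit j = z.testBit i) → i = j := by
  have h1 : ∀ {m i j : ℕ}, oneB m = true → m.testBit i = true → m.testBit j = true → i = j := fun h hi hj =>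
    le_antisymm (not_lt.1 (oneB_lt h hj hi)) (not_lt.1 (oneB_lt h hi hj))
  intro Z
  induction Z with
  | nil => exact fun h i j hi hj _ => h1 h hi hj
  | cons z Z ih =>
    intro m h i j hi hj hz
    rcases bor_iff.1 h with h | h
    · exact h1 h hi hj
    rw [bnd_iff, force_eq, force_eq] at h
    have h2 := hz z List.mem_cons_self
    have h3 := fun z' hz' => hz z' (List.mem_cons_of_mem _ hz')
    cases h4 : z.testBit i
    · exact ih h.2 i j (by simp [testBit_dif, hi, h4]) (by simp [testBit_dif, hj, h2, h4]) h3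
    · exact ih h.1 i j (by simp [hi, h4]) (by simp [hj, h2, h4]) h3

/-- The class of `a` has `s` points. -/
noncomputable def fixB (P : Par) (Z : List ℕ) (a s : ℕ) : Bool :=
  bnd (ltB P a) (Nat.beq (pop P.L P.n (cls Z a P.n)) s)

/-- The masks `Z'` are digits of the numbers of neighbours in the class of `a`. -/
noncomputable def cntB (P : Par) (ns : List Net) (x : ℕ) (Z : List ℕ) (a : ℕ) (ops Z' : List ℕ) : Bool :=
  force (cls Z a P.n) fun Y => forceL (run P.N ns ops x [] []) fun L =>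
    bnd (bnd (Nat.beq (orL (mapL (fun u => Nat.shiftRight u P.N) L)) Y) (Nat.beq (lenL L) (pop P.L P.n Y)))
      (forceL (addAll (fun u => Nat.land u (ones P.n)) L []) fun C => allL (fun z => anyL (Nat.beq z) C) Z')

/-- A model of the graph. -/
structure GM (P : Par) (e : ℕ → X) (gs : List G) (ns : List Net) (R : X → X → Prop) (x : ℕ) : Prop where
  ok : P.Ok
  inj : InjLt e P.n
  good : Good e P.n P.N gs ns
  surj : ∀ y, ∃ i < P.n, e i = y
  inv : ∀ o y z, R (letG gs o • y) (letG gs o • z) ↔ R y z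
  base : ∃ a, RowAt e P.n P.N R x a

section
variable {P : Par} {e : ℕ → X} {gs : List G} {ns : List Net} {R : X → X → Prop} {x0 : ℕ}

theorem GM.of_rk {D : List (ℕ × List ℕ)} {chk : List (List ℕ × List ℕ) → Bool} (c : Ctx P e gs ns D chk)
    (hs : ∀ y, ∃ i < P.n, e i = y) {S H : Subgroup G} {a Δ k l : ℕ} {b d : X} (h : Rk S H (e a) b d k l)
    (hS : ∀ g ∈ gs, g ∈ S) (hΔ : orbit H b = mset e P.n Δ) (ha : a < P.n) :
    GM P e gs ns (Adj S (e a) (orbit H b)) (cat (Nat.land Δ (ones P.n)) P.N (bit a)) := by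
  have hN := c.ok.1
  refine ⟨c.ok, c.inj, c.good, hs, fun o => h.adj_inv (letG_mem hS o), a, ha, fun i hi => ?_, fun i hi => ?_⟩
  · simp only [cat, lor_eq, land_eq, shl_eq, Nat.testBit_or, Nat.testBit_and, Nat.testBit_shiftLeft, testBit_ones,
      testBit_bit, one_mul]
    simp [show ¬ P.N + i < P.n by omega]
  · simp only [cat, lor_eq, land_eq, shl_eq, Nat.testBit_or, Nat.testBit_and, Nat.testBit_shiftLeft, testBit_ones]
    rw [h.adj_base, hΔ, mem_mset c.inj hi]
    simp [hi, show ¬ P.N ≤ i by omega]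

variable (m : GM P e gs ns R x0)
include m

theorem GM.step {x y : ℕ} (h : RowAt e P.n P.N R x y) (o : ℕ) :
    ∃ y', RowAt e P.n P.N R (gath 1 P.N (letN ns o) x) y' := by
  have h1 := m.good.letN o
  obtain ⟨y', hy, h2⟩ := m.good.wordF_surj [o] h.1
  have h2 : (letN ns o).fn y' = y := h2
  refine ⟨y', hy, fun i hi => ?_, fun i hi => ?_⟩
  · rw [testBit_gath h1.1 x (by norm_num) hi, h.2.1 _ (Net.fn_lt h1.1 hi), ← h2, decide_eq_decide]
    exact (Net.fn_injective h1.1).eq_iff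
  · have := testBit_gath (k := 1) (j := 0) h1.1 x (by norm_num) (hi.trans_le m.ok.1)
    rw [zero_mul, zero_add, zero_add] at this
    rw [this, h.2.2 _ (h1.2 i hi).1, ← (h1.2 i hi).2, ← h2, ← (h1.2 y' hy).2, m.inv]

theorem GM.run_spec : ∀ (ops : List ℕ) {x : ℕ} {st acc : List ℕ}, (∃ y, RowAt e P.n P.N R x y) →
    (∀ u ∈ st, ∃ y, RowAt e P.n P.N R u y) → (∀ u ∈ acc, ∃ y, RowAt e P.n P.N R u y) →
    ∀ u ∈ run P.N ns ops x st acc, ∃ y, RowAt e P.n P.N R u y
  | [], _, _, _, _, _, h => h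
  | o :: ops, x, st, acc, h1, h2, h3 => by
    have e1 : run P.N ns (o :: ops) x st acc = Bool.rec (motive := fun _ => List ℕ)
      (force (gath 1 P.N (letN ns o) x) fun x' => run P.N ns ops x' st acc)
      (Bool.rec (motive := fun _ => List ℕ)
        (Bool.rec (motive := fun _ => List ℕ)
          (List.rec (motive := fun _ => List ℕ) (run P.N ns ops x [] acc) (fun y t _ => run P.N ns ops y t acc) st)
          (run P.N ns ops x (x :: st) acc) (Nat.beq o 1001))
        (run P.N ns ops x st (x :: acc)) (Nat.beq o 1000))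
      (Nat.ble 1000 o) := rfl
    rw [e1]
    cases Nat.ble 1000 o
    · rw [force_eq]
      exact GM.run_spec ops (h1.elim fun _ h => m.step h o) h2 h3
    cases Nat.beq o 1000
    · cases Nat.beq o 1001
      · cases st with
        | nil => exact GM.run_spec ops h1 h2 h3
        | cons y t => exact GM.run_spec ops (h2 y List.mem_cons_self) (fun u hu => h2 u (List.mem_cons_of_mem _ hu)) h3
      · exact GM.run_spec ops h1 (List.forall_mem_cons.2 ⟨h1, h2⟩) h3
    · exact GM.run_spec ops h1 h2 (List.forall_mem_cons.2 ⟨h1, h3⟩)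

theorem GM.mem_iff {σ : Equiv.Perm X} {μ : ℕ} (h : Iv e P.n σ μ) (y : X) : σ y ∈ mset e P.n μ ↔ y ∈ mset e P.n μ := by
  obtain ⟨i, hi, rfl⟩ := m.surj y
  obtain ⟨j, hj, h1⟩ := m.surj (σ (e i))
  rw [← h1, mem_mset m.inj hi, mem_mset m.inj hj, h i hi j hj h1.symm]

omit m in
theorem iv_cls {σ : Equiv.Perm X} {n : ℕ} {Z : List ℕ} (h : ∀ z ∈ Z, Iv e n σ z) (a : ℕ) : Iv e n σ (cls Z a n) :=
  fun i hi j hj hσ => by
    rw [Bool.eq_iff_iff, Mx.testBit_cls, Mx.testBit_cls]
    exact and_congr (iff_of_true hj hi) (forall₂_congr fun z hz => by rw [h z hz i hi j hj hσ])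

theorem GM.fin {Z : List ℕ} (h : sepR Z (ones P.n) = true) : Bd e P.n R Z 1 := fun A _ hZ =>
  UB.bot.mono fun σ hσ => Equiv.ext fun y => by
    obtain ⟨i, hi, rfl⟩ := m.surj y
    obtain ⟨j, hj, h1⟩ := m.surj (σ (e i))
    rw [← h1, sepR_spec h i j (by simp [testBit_ones, hi]) (by simp [testBit_ones, hj])
      fun z hz => hZ σ hσ z hz i hi j hj h1.symm]
    rfl

theorem GM.fix {Z : List ℕ} {a s b : ℕ} (h : fixB P Z a s = true) (h' : Bd e P.n R (bit a :: Z) b) :
    Bd e P.n R Z (s * b) := fun A hA hZ => by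
  rw [fixB, bnd_iff] at h
  have ha := blt_spec h.1
  rw [← Nat.eq_of_beq_eq_true h.2, pop_eq m.ok.2.1, ← ncard_mset m.inj]
  refine ub_of_orbit (a := e a) le_rfl ?_ (mset_finite _ _ _) (h' _ (inf_le_left.trans hA) fun σ hσ z hz => ?_)
  · rintro _ ⟨σ, rfl⟩
    exact (m.mem_iff (iv_cls (hZ σ σ.2) a) _).2
      ((mem_mset m.inj ha).2 ((Mx.testBit_cls ..).2 ⟨ha, fun _ _ => rfl⟩))
  · rcases List.mem_cons.1 hz with rfl | hz
    · intro i hi j hj h1
      rw [testBit_bit, testBit_bit, decide_eq_decide]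
      have h2 : σ (e a) = e a := hσ.2
      exact ⟨fun h3 => m.inj a ha i hi (σ.injective (by rw [h1, h2, h3])),
        fun h3 => m.inj a ha j hj (by rw [← h1, ← h3, h2])⟩
    · exact hZ σ hσ.1 z hz

theorem GM.cnt {Z Z' ops : List ℕ} {a b : ℕ} (h : cntB P ns x0 Z a ops Z' = true) (h' : Bd e P.n R (app Z' Z) b) :
    Bd e P.n R Z b := fun A hA hZ => h' A hA fun σ hσ z hz => by
  classical
  rw [app_eq, List.mem_append] at hz
  refine hz.elim (fun hz => ?_) (hZ σ hσ z)
  rw [cntB, force_eq, forceL_eq, forceL_eq, bnd_iff, bnd_iff] at h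
  obtain ⟨⟨h1, h2⟩, h3⟩ := h
  obtain ⟨z', h4, h5⟩ := anyL_spec (allL_spec h3 z hz)
  rw [Nat.eq_of_beq_eq_true h5]
  have h6 := m.run_spec ops m.base (st := []) (acc := []) (by simp) (by simp)
  have hY := iv_cls (hZ σ hσ) a
  generalize run P.N ns ops x0 [] [] = L at h1 h2 h4 h6
  generalize cls Z a P.n = Y at h1 h2 hY
  choose! f hf using h6
  have h7 : (L.map f).toFinset = (Finset.range P.n).filter fun i => Y.testBit i = true := by
    ext i
    rw [← Nat.eq_of_beq_eq_true h1, List.mem_toFinset, List.mem_map, Finset.mem_filter, Finset.mem_range, testBit_orL]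
    constructor
    · rintro ⟨u, hu, rfl⟩
      refine ⟨(hf u hu).1, _, mem_mapL hu, ?_⟩
      rw [shr_eq, Nat.testBit_shiftRight, ← one_mul P.N, (hf u hu).2.1 _ ((hf u hu).1.trans_le m.ok.1)]
      simp
    · rintro ⟨hi, _, h8, h9⟩
      obtain ⟨u, hu, rfl⟩ := of_mem_mapL h8
      rw [shr_eq, Nat.testBit_shiftRight, ← one_mul P.N, (hf u hu).2.1 _ (hi.trans_le m.ok.1)] at h9
      exact ⟨u, hu, by simpa using h9⟩
  have h8 : (L.map f).Nodup := by
    have h9 := congrArg Finset.card h7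
    rw [List.card_toFinset, ← CL.PG.cnt, ← pop_eq m.ok.2.1, ← Nat.eq_of_beq_eq_true h2, lenL_eq,
      ← List.length_map (as := L) f] at h9
    exact ((List.dedup_sublist _).eq_of_length h9) ▸ List.nodup_dedup _
  have key : ∀ i < P.n, (L.filter fun u => (Nat.land u (ones P.n)).testBit i).length =
      {y | y ∈ mset e P.n Y ∧ R y (e i)}.ncard := fun i hi => by
    have h9 : (L.filter fun u => (Nat.land u (ones P.n)).testBit i) = L.filter ((fun y => decide (R (e y) (e i))) ∘ f) :=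
      List.filter_congr fun u hu => by
        rw [Bool.eq_iff_iff, land_eq, Nat.testBit_and, testBit_ones, Function.comp_apply, decide_eq_true_eq,
          ← (hf u hu).2.2 i hi]
        simp [hi]
    rw [h9, ← List.length_map f, ← List.filter_map, ← List.toFinset_card_of_nodup (h8.filter _), List.toFinset_filter, h7,
      ← Set.ncard_coe_finset, ← Set.InjOn.ncard_image (f := e)]
    · congr 1
      ext y
      simp only [mset, Set.mem_image, Finset.coe_filter, Finset.mem_filter, Finset.mem_range, Set.mem_ofPred_eq,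
        decide_eq_true_eq]
      exact ⟨fun ⟨j, ⟨⟨a1, a2⟩, a3⟩, a4⟩ => ⟨⟨j, a1, a2, a4⟩, a4 ▸ a3⟩,
        fun ⟨⟨j, a1, a2, a4⟩, a3⟩ => ⟨j, ⟨⟨a1, a2⟩, a4 ▸ a3⟩, a4⟩⟩
    · intro s hs t ht
      simp only [Finset.coe_filter, Finset.mem_filter, Finset.mem_range, Set.mem_ofPred_eq] at hs ht
      exact m.inj s hs.1.1 t ht.1.1
  intro i hi j hj h9
  obtain ⟨k, hk, rfl⟩ := List.getElem_of_mem h4
  rw [← List.getD_eq_getElem _ 0 hk, ← Mx.testBit_valAt, ← Mx.testBit_valAt, Mx.valAt_addAll, Mx.valAt_addAll,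
    key i hi, key j hj, ← h9, ← Set.ncard_image_of_injective {y | y ∈ mset e P.n Y ∧ R y (e i)} σ.injective]
  refine congrArg (fun s : Set X => (valAt [] j + s.ncard).testBit k) (Set.ext fun y => ?_)
  obtain ⟨y, rfl⟩ := σ.surjective y
  rw [σ.injective.mem_set_image]
  exact and_congr (m.mem_iff hY y) (hA hσ _ _)

omit m in
theorem Bd.ub {n b b' : ℕ} (h : Bd e n R [] b) (hb : b ≤ b') : UB (aut R) b' :=
  (h _ le_rfl fun _ _ _ h => by cases h).le hb

end

end CL.R3
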