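/-
Poisson summation for Gaussians attached to positive definite quadratic forms on `ℤ ^ n`.
-/
import Cfsg.Agent.Base

set_option autoImplicit false

open Matrix Complex
open scoped Real

namespace CL.Comp.Th

section alg

variable {K : Type*} [Field K] {n : ℕ}

/-- the quadratic form of a matrix -/
def qf (Q : Matrix (Fin n) (Fin n) K) (x : Fin n → K) : K := x ⬝ᵥ Q *ᵥ x

def row0 (Q : Matrix (Fin (n + 1)) (Fin (n + 1)) K) : Fin n → K := fun i => Q 0 i.succ

def low (Q : Matrix (Fin (n + 1)) (Fin (n + 1)) K) : Matrix (Fin n) (Fin n) K :=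
  of fun i j => Q i.succ j.succ

def sch (Q : Matrix (Fin (n + 1)) (Fin (n + 1)) K) : Matrix (Fin n) (Fin n) K :=
  of fun i j => Q i.succ j.succ - Q 0 i.succ * Q 0 j.succ / Q 0 0

theorem dot_symm {Q : Matrix (Fin n) (Fin n) K} (h : Q.IsSymm) (x y : Fin n → K) :
    x ⬝ᵥ Q *ᵥ y = y ⬝ᵥ Q *ᵥ x := by
  rw [dotProduct_mulVec, ← mulVec_transpose, h.eq, dotProduct_comm]

theorem qf_add {Q : Matrix (Fin n) (Fin n) K} (h : Q.IsSymm) (x y : Fin n → K) :
    qf Q (x + y) = qf Q x + 2 * ((Q *ᵥ y) ⬝ᵥ x) + qf Q y := by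
  simp only [qf, mulVec_add, add_dotProduct, dotProduct_add]
  rw [dot_symm h y x, dotProduct_comm (Q *ᵥ y) x]; ring

theorem qf_smul (Q : Matrix (Fin n) (Fin n) K) (c : K) (x : Fin n → K) :
    qf Q (c • x) = c ^ 2 * qf Q x := by
  simp only [qf, mulVec_smul, smul_dotProduct, dotProduct_smul, smul_eq_mul]; ring

theorem qf_cons {Q : Matrix (Fin (n + 1)) (Fin (n + 1)) K} (h : Q.IsSymm) (a : K) (x : Fin n → K) :
    qf Q (Fin.cons a x) = Q 0 0 * a ^ 2 + 2 * a * (row0 Q ⬝ᵥ x) + qf (low Q) x := by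
  have h1 : ∀ i : Fin n, Q i.succ 0 = Q 0 i.succ := fun i => h.apply _ _
  simp only [qf, dotProduct, mulVec, Fin.sum_univ_succ, Fin.cons_zero, Fin.cons_succ, row0, low,
    of_apply, h1, mul_add, Finset.sum_add_distrib]
  have : ∑ i, x i * (Q 0 i.succ * a) = a * ∑ i, Q 0 i.succ * x i := by
    rw [Finset.mul_sum]; exact Finset.sum_congr rfl fun i _ => by ring
  rw [this]; ring

theorem qf_sch (Q : Matrix (Fin (n + 1)) (Fin (n + 1)) K) (x : Fin n → K) :
    qf (sch Q) x = qf (low Q) x - (row0 Q ⬝ᵥ x) ^ 2 / Q 0 0 := by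
  simp only [qf, dotProduct, mulVec, row0, low, sch, of_apply, sub_mul, Finset.sum_sub_distrib, mul_sub]
  congr 1
  rw [sq, Finset.sum_mul_sum, Finset.sum_div]
  refine Finset.sum_congr rfl fun i _ => ?_
  rw [Finset.mul_sum, Finset.sum_div]
  exact Finset.sum_congr rfl fun j _ => by ring

omit [Field K] in
theorem low_symm {Q : Matrix (Fin (n + 1)) (Fin (n + 1)) K} (h : Q.IsSymm) : (low Q).IsSymm :=
  IsSymm.ext fun _ _ => h.apply _ _

theorem sch_symm {Q : Matrix (Fin (n + 1)) (Fin (n + 1)) K} (h : Q.IsSymm) : (sch Q).IsSymm :=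
  IsSymm.ext fun i j => by simp only [sch, of_apply]; rw [h.apply i.succ j.succ]; ring

theorem low_mulVec_row0 {Q R : Matrix (Fin (n + 1)) (Fin (n + 1)) K} (hR : R.IsSymm) (h : Q * R = 1) :
    low R *ᵥ row0 Q = -Q 0 0 • row0 R := by
  funext j
  have h1 := congrFun (congrFun h 0) j.succ
  rw [mul_apply, Fin.sum_univ_succ, one_apply_ne (Fin.succ_ne_zero j).symm] at h1
  simp only [mulVec, dotProduct, low, row0, of_apply, Pi.smul_apply, smul_eq_mul]
  rw [Finset.sum_congr rfl fun k _ => show R j.succ k.succ * Q 0 k.succ = Q 0 k.succ * R k.succ j.succ by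
    rw [hR.apply k.succ j.succ, mul_comm]]
  linear_combination h1

theorem row0_dot {Q R : Matrix (Fin (n + 1)) (Fin (n + 1)) K} (hR : R.IsSymm) (h : Q * R = 1) :
    row0 Q ⬝ᵥ row0 R = 1 - Q 0 0 * R 0 0 := by
  have h1 := congrFun (congrFun h 0) 0
  rw [mul_apply, Fin.sum_univ_succ, one_apply_eq] at h1
  simp only [dotProduct, row0]
  rw [Finset.sum_congr rfl fun k _ => show Q 0 k.succ * R 0 k.succ = Q 0 k.succ * R k.succ 0 by
    rw [hR.apply k.succ 0]]
  linear_combination h1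

theorem sch_mul_low {Q R : Matrix (Fin (n + 1)) (Fin (n + 1)) K} (hQ : Q.IsSymm) (h : Q * R = 1)
    (h0 : Q 0 0 ≠ 0) : sch Q * low R = 1 := by
  ext i j
  have h1 := congrFun (congrFun h 0) j.succ
  rw [mul_apply, Fin.sum_univ_succ, one_apply_ne (Fin.succ_ne_zero j).symm] at h1
  have h2 := congrFun (congrFun h i.succ) j.succ
  rw [mul_apply, Fin.sum_univ_succ, hQ.apply 0 i.succ] at h2
  have h3 : (1 : Matrix (Fin (n + 1)) (Fin (n + 1)) K) i.succ j.succ = (1 : Matrix _ _ K) i j := by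
    simp [one_apply]
  simp only [mul_apply, sch, low, of_apply, sub_mul, Finset.sum_sub_distrib]
  have h4 : ∑ k : Fin n, Q 0 i.succ * Q 0 k.succ / Q 0 0 * R k.succ j.succ =
      Q 0 i.succ / Q 0 0 * ∑ k : Fin n, Q 0 k.succ * R k.succ j.succ := by
    rw [Finset.mul_sum]; exact Finset.sum_congr rfl fun k _ => by ring
  rw [h4, ← h3, ← h2, eq_neg_of_add_eq_zero_right h1]
  field_simp
  ring

theorem qf_dual {Q R : Matrix (Fin (n + 1)) (Fin (n + 1)) K} (hR : R.IsSymm) (h : Q * R = 1)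
    (h0 : Q 0 0 ≠ 0) (a : K) (w : Fin n → K) :
    a ^ 2 / Q 0 0 + qf (low R) (w + (-a / Q 0 0) • row0 Q) = qf R (Fin.cons a w) := by
  rw [qf_add (low_symm hR), qf_smul, qf_cons hR, mulVec_smul]
  simp only [qf, low_mulVec_row0 hR h, smul_dotProduct, dotProduct_smul, smul_eq_mul, row0_dot hR h]
  field_simp
  ring

end alg

variable {n : ℕ}

/-- uniformly positive definite -/
def Pos (Q : Matrix (Fin n) (Fin n) ℝ) : Prop := ∃ ε > 0, ∀ x : Fin n → ℝ, ε * ∑ i, x i ^ 2 ≤ qf Q x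

theorem Pos.zero_zero {Q : Matrix (Fin (n + 1)) (Fin (n + 1)) ℝ} (hQ : Q.IsSymm) (h : Pos Q) :
    0 < Q 0 0 := by
  obtain ⟨ε, h1, h2⟩ := h
  have := h2 (Fin.cons 1 0)
  rw [qf_cons hQ] at this
  simp [Fin.sum_univ_succ, qf] at this
  linarith

theorem Pos.low {Q : Matrix (Fin (n + 1)) (Fin (n + 1)) ℝ} (hQ : Q.IsSymm) (h : Pos Q) :
    Pos (low Q) := by
  obtain ⟨ε, h1, h2⟩ := h
  refine ⟨ε, h1, fun x => ?_⟩
  have := h2 (Fin.cons 0 x)
  rw [qf_cons hQ] at this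
  simpa [Fin.sum_univ_succ] using this

theorem Pos.sch {Q : Matrix (Fin (n + 1)) (Fin (n + 1)) ℝ} (hQ : Q.IsSymm) (h : Pos Q) :
    Pos (sch Q) := by
  have h0 := h.zero_zero hQ
  obtain ⟨ε, h1, h2⟩ := h
  refine ⟨ε, h1, fun x => ?_⟩
  have h3 := h2 (Fin.cons (-(row0 Q ⬝ᵥ x) / Q 0 0) x)
  rw [qf_cons hQ] at h3
  simp only [Fin.sum_univ_succ, Fin.cons_zero, Fin.cons_succ] at h3
  have h4 : Q 0 0 * (-(row0 Q ⬝ᵥ x) / Q 0 0) ^ 2 + 2 * (-(row0 Q ⬝ᵥ x) / Q 0 0) * (row0 Q ⬝ᵥ x) +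
      qf (Th.low Q) x = qf (Th.sch Q) x := by
    rw [qf_sch]; field_simp; ring
  rw [h4] at h3
  nlinarith [sq_nonneg (-(row0 Q ⬝ᵥ x) / Q 0 0)]

/-- complexification -/
def cx (Q : Matrix (Fin n) (Fin n) ℝ) : Matrix (Fin n) (Fin n) ℂ := Q.map (↑)

/-- an integral vector as a complex vector -/
def iv (x : Fin n → ℤ) : Fin n → ℂ := fun i => x i

theorem qf_cx (Q : Matrix (Fin n) (Fin n) ℝ) (x : Fin n → ℤ) :
    qf (cx Q) (iv x) = (qf Q fun i => (x i : ℝ) : ℝ) := by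
  simp [qf, cx, iv, dotProduct, mulVec]

theorem cx_symm {Q : Matrix (Fin n) (Fin n) ℝ} (h : Q.IsSymm) : (cx Q).IsSymm := h.map _

theorem cx_mul {Q R : Matrix (Fin n) (Fin n) ℝ} (h : Q * R = 1) : cx Q * cx R = 1 := by
  have := congrArg (fun M => M.map ofRealHom) h
  simp only [Matrix.map_mul, Matrix.map_one _ (map_zero _) (map_one _)] at this
  exact this

theorem cx_low (Q : Matrix (Fin (n + 1)) (Fin (n + 1)) ℝ) : cx (low Q) = low (cx Q) := rfl

theorem cx_sch (Q : Matrix (Fin (n + 1)) (Fin (n + 1)) ℝ) : cx (sch Q) = sch (cx Q) := by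
  ext i j; simp [cx, sch]

theorem iv_cons (a : ℤ) (x : Fin n → ℤ) : iv (Fin.cons a x) = Fin.cons (a : ℂ) (iv x) := by
  funext i; refine Fin.cases rfl (fun _ => rfl) i

theorem summable_prod_int : ∀ {n : ℕ} (g : Fin n → ℤ → ℝ), (∀ i, Summable (g i)) → (∀ i, 0 ≤ g i) →
    Summable fun x : Fin n → ℤ => ∏ i, g i (x i)
  | 0, _, _, _ => Summable.of_finite
  | n + 1, g, h1, h2 => by
    rw [← (Fin.consEquiv fun _ => ℤ).summable_iff]
    have := (h1 0).mul_of_nonneg (summable_prod_int (fun i => g i.succ) (fun i => h1 _) fun i => h2 _)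
      (h2 0) fun x => Finset.prod_nonneg fun i _ => h2 _ _
    refine this.congr fun p => ?_
    simp [Fin.consEquiv, Fin.prod_univ_succ]

/-- the Gaussian term -/
noncomputable def term (Q : Matrix (Fin n) (Fin n) ℝ) (t : ℂ) (b : Fin n → ℂ) (x : Fin n → ℤ) : ℂ :=
  cexp (-π * t * qf (cx Q) (iv x) + 2 * π * (b ⬝ᵥ iv x))

theorem norm_term (Q : Matrix (Fin n) (Fin n) ℝ) (t : ℂ) (b : Fin n → ℂ) (x : Fin n → ℤ) :
    ‖term Q t b x‖ = Real.exp (-π * t.re * (qf Q fun i => (x i : ℝ)) + 2 * π * ∑ i, (b i).re * x i) := by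
  rw [term, norm_exp, qf_cx]
  simp [dotProduct, iv]

theorem summable_norm_term {Q : Matrix (Fin n) (Fin n) ℝ} (h : Pos Q) {t : ℂ} (ht : 0 < t.re)
    (b : Fin n → ℂ) : Summable fun x => ‖term Q t b x‖ := by
  obtain ⟨ε, h1, h2⟩ := h
  refine Summable.of_nonneg_of_le (fun _ => norm_nonneg _) (fun x => ?_) (summable_prod_int
    (fun i (m : ℤ) => Real.exp (-π * (t.re * ε * m ^ 2 - 2 * |(b i).re| * |m|)))
    (fun i => by simpa using summable_pow_mul_jacobiTheta₂_term_bound |(b i).re| (mul_pos ht h1) 0)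
    fun _ _ => (Real.exp_pos _).le)
  rw [norm_term, ← Real.exp_sum, Real.exp_le_exp, ← Finset.mul_sum, Finset.sum_sub_distrib,
    ← Finset.mul_sum]
  have h3 := mul_le_mul_of_nonneg_left (h2 fun i => (x i : ℝ)) ht.le
  have h4 : 2 * ∑ i, (b i).re * x i ≤ ∑ i, 2 * |(b i).re| * ((|x i| : ℤ) : ℝ) := by
    rw [Finset.mul_sum]
    refine Finset.sum_le_sum fun i _ => ?_
    rw [Int.cast_abs, mul_assoc, ← abs_mul]
    linarith [le_abs_self ((b i).re * x i)]
  nlinarith [Real.pi_pos]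

theorem summable_term {Q : Matrix (Fin n) (Fin n) ℝ} (h : Pos Q) {t : ℂ} (ht : 0 < t.re)
    (b : Fin n → ℂ) : Summable (term Q t b) := (summable_norm_term h ht b).of_norm

/-- the dual Gaussian term -/
noncomputable def dterm (R : Matrix (Fin n) (Fin n) ℝ) (t : ℂ) (b : Fin n → ℂ) (m : Fin n → ℤ) : ℂ :=
  cexp (-π / t * qf (cx R) (iv m + I • b))

theorem summable_dterm {R : Matrix (Fin n) (Fin n) ℝ} (hR : R.IsSymm) (h : Pos R) {t : ℂ}
    (ht : 0 < t.re) (b : Fin n → ℂ) : Summable (dterm R t b) := by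
  have ht' : 0 < (t⁻¹).re := by
    rw [inv_re]; exact div_pos ht (normSq_pos.2 fun e => by simp [e] at ht)
  refine ((summable_term h ht' ((-t⁻¹) • cx R *ᵥ (I • b))).mul_right
    (cexp (-π / t * qf (cx R) (I • b)))).congr fun m => ?_
  rw [term, dterm, ← Complex.exp_add, qf_add (cx_symm hR), smul_dotProduct, smul_eq_mul]
  congr 1
  ring

theorem summable_one {s : ℂ} (hs : 0 < s.re) (b : ℂ) :
    Summable fun m : ℤ => ‖cexp (-π / s * (m + I * b) ^ 2)‖ := by
  have hs' : 0 < (I / s).im := by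
    rw [div_eq_mul_inv, I_mul_im, inv_re]; exact div_pos hs (normSq_pos.2 fun e => by simp [e] at hs)
  refine (((summable_jacobiTheta₂_term_iff (-b / s) (I / s)).2 hs').mul_right
    (cexp (π / s * b ^ 2))).norm.congr fun m => ?_
  rw [jacobiTheta₂_term, ← Complex.exp_add]
  congr 2
  linear_combination (π * m ^ 2 / s + π * b ^ 2 / s) * I_sq

theorem mul_cpow_half {t : ℂ} (ht : t ≠ 0) {a : ℝ} (ha : 0 < a) :
    (t * a) ^ (1 / 2 : ℂ) = t ^ (1 / 2 : ℂ) * (a : ℂ) ^ (1 / 2 : ℂ) := by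
  have ha' : (a : ℂ) ≠ 0 := ofReal_ne_zero.2 ha.ne'
  rw [cpow_def_of_ne_zero (mul_ne_zero ht ha'), cpow_def_of_ne_zero ht, cpow_def_of_ne_zero ha',
    log_mul_ofReal a ha t ht, ofReal_log ha.le, ← Complex.exp_add]
  congr 1
  ring

/-- Poisson summation -/
theorem poisson : ∀ {n : ℕ} {Q R : Matrix (Fin n) (Fin n) ℝ}, Q.IsSymm → R.IsSymm → Pos Q → Pos R →
    Q * R = 1 → ∃ c : ℂ, ∀ t : ℂ, 0 < t.re → ∀ b : Fin n → ℂ,
      ∑' x, term Q t b x = c / (t ^ (1 / 2 : ℂ)) ^ n * ∑' m, dterm R t b m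
  | 0, Q, R, _, _, _, _, _ => ⟨1, fun t _ b => by simp [term, dterm, qf]⟩
  | n + 1, Q, R, hQ, hR, pQ, pR, h => by
    have ha := pQ.zero_zero hQ
    have ha' : (cx Q) 0 0 ≠ 0 := ofReal_ne_zero.2 ha.ne'
    obtain ⟨c, hc⟩ := poisson (sch_symm hQ) (low_symm hR) (pQ.sch hQ) (pR.low hR)
      (sch_mul_low hQ h ha.ne')
    refine ⟨c / (Q 0 0 : ℂ) ^ (1 / 2 : ℂ), fun t ht b => ?_⟩
    have ht0 : t ≠ 0 := fun e => by simp [e] at ht
    have hta : 0 < (t * Q 0 0).re := by simpa using mul_pos ht ha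
    obtain ⟨b0, b, rfl⟩ : ∃ b0 b', b = Fin.cons b0 b' := ⟨b 0, Fin.tail b, (Fin.cons_self_tail b).symm⟩
    let F : (Fin n → ℤ) → ℤ → ℂ := fun x m => cexp (-π / (t * Q 0 0) * (m + I * b0) ^ 2) *
      term (sch Q) t (b + (I * (m + I * b0) / Q 0 0) • row0 (cx Q)) x
    have e1 : ∀ x : Fin n → ℤ, ∑' a : ℤ, term Q t (Fin.cons b0 b) (Fin.cons a x) =
        1 / (t * Q 0 0) ^ (1 / 2 : ℂ) * ∑' m, F x m := by
      intro x
      have h1 : ∀ a : ℤ, term Q t (Fin.cons b0 b) (Fin.cons a x) =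
          cexp (-π * (t * Q 0 0) * a ^ 2 + 2 * π * (b0 - t * (row0 (cx Q) ⬝ᵥ iv x)) * a) *
            cexp (-π * t * qf (low (cx Q)) (iv x) + 2 * π * (b ⬝ᵥ iv x)) := by
        intro a
        rw [term, iv_cons, qf_cons (cx_symm hQ), ← Complex.exp_add]
        congr 1
        simp only [dotProduct, Fin.sum_univ_succ, Fin.cons_zero, Fin.cons_succ,
          show cx Q 0 0 = Q 0 0 from rfl]
        ring
      simp only [h1]
      rw [tsum_mul_right, tsum_exp_neg_quadratic hta, mul_assoc, ← tsum_mul_right]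
      congr 2
      funext m
      simp only [F, term, ← Complex.exp_add, cx_sch, qf_sch, add_dotProduct, smul_dotProduct,
        smul_eq_mul, show cx Q 0 0 = Q 0 0 from rfl]
      congr 1
      have : (Q 0 0 : ℂ) ≠ 0 := ha'
      field_simp
      linear_combination (-(t ^ 2) * (row0 (cx Q) ⬝ᵥ iv x) ^ 2) * I_sq
    have hF : Summable (Function.uncurry F) := by
      refine Summable.of_norm (((summable_norm_term (pQ.sch hQ) ht
        (b + (-b0 / Q 0 0) • row0 (cx Q))).mul_of_nonneg (summable_one hta b0) (fun _ => norm_nonneg _)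
        fun _ => norm_nonneg _).congr fun p => ?_)
      simp only [Function.uncurry, F, norm_mul, norm_term]
      rw [mul_comm]
      congr 6
      funext i
      congr 1
      have : I * (p.2 + I * b0) / Q 0 0 = -b0 / Q 0 0 + I * ((p.2 / Q 0 0 : ℝ) : ℂ) := by
        push_cast
        linear_combination (b0 / Q 0 0) * I_sq
      rw [this]
      simp [row0, cx, add_mul]
    have e2 : ∀ m : ℤ, ∑' x, F x m = c / (t ^ (1 / 2 : ℂ)) ^ n *
        ∑' y, dterm R t (Fin.cons b0 b) (Fin.cons m y) := by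
      intro m
      simp only [F]
      rw [tsum_mul_left, hc t ht, mul_left_comm, ← tsum_mul_left]
      congr 2
      funext y
      rw [dterm, dterm, ← Complex.exp_add, iv_cons]
      have h1 : (Fin.cons (m : ℂ) (iv y) : Fin (n + 1) → ℂ) + I • (Fin.cons b0 b : Fin (n + 1) → ℂ) =
          Fin.cons (m + I * b0) (iv y + I • b) := by
        funext i; refine Fin.cases rfl (fun _ => rfl) i
      have h2 : iv y + I • (b + (I * (m + I * b0) / Q 0 0) • row0 (cx Q)) =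
          iv y + I • b + (-(m + I * b0) / cx Q 0 0) • row0 (cx Q) := by
        rw [smul_add, smul_smul, add_assoc]
        congr 3
        change _ = -(m + I * b0) / (Q 0 0 : ℂ)
        linear_combination ((m + I * b0) / Q 0 0) * I_sq
      rw [h1, h2, ← qf_dual (cx_symm hR) (cx_mul h) ha', cx_low]
      congr 1
      change _ = _ * (_ / (Q 0 0 : ℂ) + _)
      ring
    have s1 := (Fin.consEquiv fun _ => ℤ).summable_iff.2 (summable_term pQ ht (Fin.cons b0 b))
    have s2 := (Fin.consEquiv fun _ => ℤ).summable_iff.2 (summable_dterm hR pR ht (Fin.cons b0 b))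
    rw [← (Fin.consEquiv fun _ => ℤ).tsum_eq, ← (Fin.consEquiv fun _ => ℤ).tsum_eq (dterm R t _)]
    refine (Summable.tsum_prod s1).trans (Eq.trans ?_ (congrArg _ (Summable.tsum_prod s2).symm))
    have s3 : Summable (Function.uncurry fun (a : ℤ) (x : Fin n → ℤ) =>
      term Q t (Fin.cons b0 b) (Fin.cons a x)) := s1
    change ∑' (a : ℤ) (x : Fin n → ℤ), term Q t (Fin.cons b0 b) (Fin.cons a x) =
      _ * ∑' (m : ℤ) (y : Fin n → ℤ), dterm R t (Fin.cons b0 b) (Fin.cons m y)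
    rw [← s3.tsum_comm]
    simp only [e1]
    rw [tsum_mul_left, ← hF.tsum_comm]
    simp only [e2]
    rw [tsum_mul_left, mul_cpow_half ht0 ha, pow_succ]
    ring

/-! ### Theta series of even unimodular lattices -/

open UpperHalfPlane hiding I
open ModularForm EisensteinSeries
open scoped MatrixGroups

/-- an integral matrix as a real matrix -/
def rm (B : Matrix (Fin n) (Fin n) ℤ) : Matrix (Fin n) (Fin n) ℝ := B.map (↑)

theorem qf_rm (B : Matrix (Fin n) (Fin n) ℤ) (x : Fin n → ℤ) :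
    (qf (rm B) fun i => (x i : ℝ)) = ((x ⬝ᵥ B *ᵥ x : ℤ) : ℝ) := by
  simp [qf, rm, dotProduct, mulVec]

theorem rm_mul {B C : Matrix (Fin n) (Fin n) ℤ} (h : B * C = 1) : rm B * rm C = 1 := by
  have := congrArg (fun M => M.map (Int.castRingHom ℝ)) h
  simp only [Matrix.map_mul, Matrix.map_one _ (map_zero _) (map_one _)] at this
  exact this

theorem qf_nonneg {B : Matrix (Fin n) (Fin n) ℤ} (h : ∀ x : Fin n → ℤ, 0 ≤ x ⬝ᵥ B *ᵥ x)
    (x : Fin n → ℝ) : 0 ≤ qf (rm B) x := by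
  have hd : DenseRange fun (y : Fin n → ℚ) (i : Fin n) => (y i : ℝ) :=
    DenseRange.piMap fun _ => Rat.denseRange_cast
  refine hd.induction_on x (isClosed_le continuous_const ?_) fun y => ?_
  · unfold qf dotProduct mulVec dotProduct; fun_prop
  · obtain ⟨⟨d, hd⟩, h1⟩ := IsLocalization.exist_integer_multiples_of_finite (nonZeroDivisors ℤ) y
    choose z hz using h1
    have h2 := h z
    have h3 : (fun i => (z i : ℝ)) = (d : ℝ) • fun i => (y i : ℝ) := by
      funext i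
      have h6 : (z i : ℚ) = d * y i := by simpa using hz i
      have := congrArg (fun q : ℚ => (q : ℝ)) h6
      simpa using this
    have h4 : (0 : ℝ) ≤ qf (rm B) fun i => (z i : ℝ) := by rw [qf_rm]; exact_mod_cast h2
    rw [h3, qf_smul] at h4
    have h5 : (d : ℝ) ≠ 0 := by exact_mod_cast nonZeroDivisors.ne_zero hd
    exact nonneg_of_mul_nonneg_right h4 (by positivity)

theorem pos_of_nonneg {Q R : Matrix (Fin n) (Fin n) ℝ} (hQ : Q.IsSymm) (h : Q * R = 1)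
    (h0 : ∀ x, 0 ≤ qf Q x) : Pos Q := by
  have key : ∀ (x : Fin n → ℝ) (i : Fin n), x i ^ 2 ≤ qf Q (R *ᵥ Pi.single i 1) * qf Q x := by
    intro x i
    have h1 := discrim_le_zero (a := qf Q (R *ᵥ Pi.single i 1)) (b := 2 * x i) (c := qf Q x)
      fun s => by
        have := h0 (x + s • R *ᵥ Pi.single i 1)
        rw [qf_add hQ, qf_smul, mulVec_smul, mulVec_mulVec, h, one_mulVec, smul_dotProduct,
          single_dotProduct, smul_eq_mul] at this
        linarith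
    rw [discrim] at h1
    linarith
  have h1 : 0 ≤ ∑ i, qf Q (R *ᵥ Pi.single i 1) := Finset.sum_nonneg fun _ _ => h0 _
  refine ⟨(1 + ∑ i, qf Q (R *ᵥ Pi.single i 1))⁻¹, by positivity, fun x => ?_⟩
  rw [inv_mul_le_iff₀ (by positivity), add_mul, Finset.sum_mul]
  linarith [Finset.sum_le_sum fun i (_ : i ∈ Finset.univ) => key x i, h0 x]

/-- the theta series -/
noncomputable def theta (B : Matrix (Fin n) (Fin n) ℤ) (z : ℂ) : ℂ :=
  ∑' x : Fin n → ℤ, cexp (π * I * z * (x ⬝ᵥ B *ᵥ x : ℤ))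

theorem term_zero (B : Matrix (Fin n) (Fin n) ℤ) (z : ℂ) (x : Fin n → ℤ) :
    term (rm B) (-I * z) 0 x = cexp (π * I * z * (x ⬝ᵥ B *ᵥ x : ℤ)) := by
  rw [term, qf_cx, qf_rm]
  simp [mul_assoc]

theorem summable_theta {B : Matrix (Fin n) (Fin n) ℤ} (h : Pos (rm B)) {z : ℂ} (hz : 0 < z.im) :
    Summable fun x : Fin n → ℤ => cexp (π * I * z * (x ⬝ᵥ B *ᵥ x : ℤ)) :=
  (summable_term h (t := -I * z) (by simpa using hz) 0).congr (term_zero B z)

theorem theta_S {B C : Matrix (Fin 24) (Fin 24) ℤ} (hB : B.IsSymm) (hBC : B * C = 1)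
    (h0 : ∀ x : Fin 24 → ℤ, 0 ≤ x ⬝ᵥ B *ᵥ x) {z : ℂ} (hz : 0 < z.im) :
    theta B (-z⁻¹) = z ^ 12 * theta B z := by
  have hCB : C * B = 1 := mul_eq_one_comm.1 hBC
  have hC : C.IsSymm := by
    have := congrArg transpose hBC
    rw [transpose_mul, hB.eq, transpose_one] at this
    rw [IsSymm, ← mul_one Cᵀ, ← hBC, ← mul_assoc, this, one_mul]
  have e0 : ∀ y : Fin 24 → ℤ, (B *ᵥ y) ⬝ᵥ C *ᵥ B *ᵥ y = y ⬝ᵥ B *ᵥ y := fun y => by
    rw [mulVec_mulVec, hCB, one_mulVec, dotProduct_comm]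
  let e : (Fin 24 → ℤ) ≃ (Fin 24 → ℤ) := ⟨(B *ᵥ ·), (C *ᵥ ·),
    fun y => by simp [mulVec_mulVec, hCB], fun y => by simp [mulVec_mulVec, hBC]⟩
  have pB : Pos (rm B) := pos_of_nonneg (hB.map _) (rm_mul hBC) (qf_nonneg h0)
  have pC : Pos (rm C) := pos_of_nonneg (hC.map _) (rm_mul hCB) (qf_nonneg fun x => by
    obtain ⟨y, rfl⟩ := e.surjective x
    exact (h0 y).trans_eq (e0 y).symm)
  obtain ⟨c, hc⟩ := poisson (Q := rm B) (R := rm C) (hB.map _) (hC.map _) pB pC (rm_mul hBC)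
  have key : ∀ z : ℂ, 0 < z.im → theta B z = c / z ^ 12 * theta B (-z⁻¹) := by
    intro z hz
    have hz0 : z ≠ 0 := fun e => by simp [e] at hz
    have h1 := hc (-I * z) (by simpa using hz) 0
    have h2 : ((-I * z) ^ (1 / 2 : ℂ)) ^ 24 = z ^ 12 := by
      rw [show 24 = 2 * 12 from rfl, pow_mul, one_div, show (2 : ℂ) = ((2 : ℕ) : ℂ) from rfl,
        cpow_nat_inv_pow _ two_ne_zero, mul_pow, show 12 = 4 * 3 from rfl, pow_mul, neg_pow, I_pow_four]
      norm_num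
    rw [h2, ← e.tsum_eq (dterm _ _ _)] at h1
    refine (tsum_congr fun x => (term_zero B z x).symm).trans (h1.trans ?_)
    congr 1
    refine tsum_congr fun y => ?_
    rw [dterm, smul_zero, add_zero, qf_cx, qf_rm, show e y = B *ᵥ y from rfl, e0]
    congr 1
    push_cast
    field_simp
    linear_combination ((y ⬝ᵥ B *ᵥ y : ℤ) : ℂ) * I_sq
  have hI : theta B I ≠ 0 := by
    have h1 : theta B I = ((∑' x : Fin 24 → ℤ, Real.exp (-π * (x ⬝ᵥ B *ᵥ x : ℤ)) : ℝ) : ℂ) := by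
      rw [ofReal_tsum]
      refine tsum_congr fun x => ?_
      push_cast
      congr 1
      linear_combination (π * ((x ⬝ᵥ B *ᵥ x : ℤ) : ℂ)) * I_sq
    rw [h1, ofReal_ne_zero]
    refine (Summable.tsum_pos ?_ (fun _ => (Real.exp_pos _).le) 0 (Real.exp_pos _)).ne'
    refine (summable_norm_term pB (t := 1) (by simp) 0).congr fun x => ?_
    rw [norm_term, qf_rm]
    simp
  have hc1 : c = 1 := by
    have h1 := key I (by simp)
    rw [inv_I, neg_neg, show 12 = 4 * 3 from rfl, pow_mul, I_pow_four, one_pow, div_one] at h1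
    exact mul_right_cancel₀ hI (h1.symm.trans (one_mul _).symm)
  have hz0 : z ≠ 0 := fun e => by simp [e] at hz
  rw [key z hz, hc1]
  field_simp

/-- number of vectors of norm `2 m` -/
noncomputable def cf (B : Matrix (Fin n) (Fin n) ℤ) (m : ℕ) : ℕ :=
  {x : Fin n → ℤ | x ⬝ᵥ B *ᵥ x = 2 * m}.ncard

theorem hasSum_theta {B : Matrix (Fin n) (Fin n) ℤ} (h : Pos (rm B))
    (h0 : ∀ x : Fin n → ℤ, 0 ≤ x ⬝ᵥ B *ᵥ x) (hev : ∀ x : Fin n → ℤ, (2 : ℤ) ∣ x ⬝ᵥ B *ᵥ x) (τ : ℍ) :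
    HasSum (fun m : ℕ => (cf B m : ℂ) • Function.Periodic.qParam (1 : ℝ) τ ^ m) (theta B τ) := by
  let f : (Fin n → ℤ) → ℕ := fun x => (x ⬝ᵥ B *ᵥ x / 2).toNat
  have hf : ∀ x m, f x = m ↔ x ⬝ᵥ B *ᵥ x = 2 * m := fun x m => by
    have := h0 x; have := hev x; simp only [f]; omega
  have hs := summable_theta h τ.im_pos
  have h1 := hs.hasSum.tsum_fiberwise f
  refine (congrArg (fun g => HasSum g (theta B τ)) (funext fun m => ?_)).mp h1
  have h2 : ∀ x : f ⁻¹' {m}, cexp (π * I * τ * ((x : Fin n → ℤ) ⬝ᵥ B *ᵥ x : ℤ)) =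
      Function.Periodic.qParam (1 : ℝ) τ ^ m := fun x => by
    rw [(hf x m).1 x.2, Function.Periodic.qParam, ← Complex.exp_nat_mul]
    congr 1
    push_cast
    ring
  rw [tsum_congr h2, tsum_const, nsmul_eq_mul, smul_eq_mul, Nat.card_coe_set_eq]
  congr 3
  ext x
  exact hf x m

theorem theta_differentiableOn {B : Matrix (Fin n) (Fin n) ℤ} (h : Pos (rm B))
    (h0 : ∀ x : Fin n → ℤ, 0 ≤ x ⬝ᵥ B *ᵥ x) : DifferentiableOn ℂ (theta B) {z | 0 < z.im} := by
  intro z hz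
  have hz' : 0 < z.im / 2 := half_pos hz
  have ho : IsOpen {w : ℂ | z.im / 2 < w.im} := isOpen_lt continuous_const continuous_im
  refine ((differentiableOn_tsum_of_summable_norm
    (summable_norm_term h (t := (z.im / 2 : ℝ)) (by simpa using hz') 0) (fun x => by fun_prop) ho
    fun x w hw => ?_).differentiableAt (ho.mem_nhds (show z.im / 2 < z.im from half_lt_self hz))).differentiableWithinAt
  rw [norm_term, qf_rm, norm_exp, Real.exp_le_exp]
  have h1 : (0 : ℝ) ≤ (x ⬝ᵥ B *ᵥ x : ℤ) := by exact_mod_cast h0 x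
  have h2 : z.im / 2 < w.im := hw
  generalize (x ⬝ᵥ B *ᵥ x : ℤ) = k at h1
  simp
  nlinarith [mul_nonneg (mul_pos Real.pi_pos (sub_pos.2 h2)).le h1]

/-- the theta series of an even unimodular lattice of rank 24 as a modular form of weight 12 -/
theorem exists_modularForm {B C : Matrix (Fin 24) (Fin 24) ℤ} (hB : B.IsSymm) (hBC : B * C = 1)
    (h0 : ∀ x : Fin 24 → ℤ, 0 ≤ x ⬝ᵥ B *ᵥ x) (hev : ∀ x : Fin 24 → ℤ, (2 : ℤ) ∣ x ⬝ᵥ B *ᵥ x) :
    ∃ f : ModularForm 𝒮ℒ 12, ∀ m, (qExpansion 1 f).coeff m = cf B m := by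
  have pB : Pos (rm B) := pos_of_nonneg (hB.map _) (rm_mul hBC) (qf_nonneg h0)
  have hS : (fun τ : ℍ => theta B τ) ∣[(12 : ℤ)] ModularGroup.S = fun τ : ℍ => theta B τ := by
    ext z
    suffices theta B (-(↑z)⁻¹) * ((z : ℂ) ^ 12)⁻¹ = theta B z by
      rw [SL_slash_apply, UpperHalfPlane.modular_S_smul, ModularGroup.denom_S]
      simpa
    rw [theta_S hB hBC h0 z.im_pos]
    field_simp [z.ne_zero]
  have hT : (fun τ : ℍ => theta B τ) ∣[(12 : ℤ)] ModularGroup.T = fun τ : ℍ => theta B τ := by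
    ext z
    suffices theta B (1 + z) = theta B z by
      rw [SL_slash_apply, modular_T_smul, ModularGroup.denom_apply]
      simpa [ModularGroup.T]
    refine tsum_congr fun x => ?_
    obtain ⟨k, hk⟩ := hev x
    rw [hk, Complex.exp_eq_exp_iff_exists_int]
    exact ⟨k, by push_cast; ring⟩
  let f : ModularForm 𝒮ℒ 12 :=
    { toFun := fun τ : ℍ => theta B τ
      slash_action_eq' := fun A hA => by
        obtain ⟨A, rfl⟩ := hA
        exact SlashInvariantForm.slash_action_generators_SL2Z hS hT A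
      holo' := by
        rw [UpperHalfPlane.mdifferentiable_iff]
        refine (theta_differentiableOn pB h0).congr fun z hz => ?_
        simp [ofComplex_apply_of_im_pos hz]
      bdd_at_cusps' := fun hc => by
        rw [Subgroup.IsArithmetic.isCusp_iff_isCusp_SL2Z] at hc
        rw [OnePoint.isBoundedAt_iff_forall_SL2Z hc]
        intro γ _
        rw [SlashInvariantForm.slash_action_generators_SL2Z hS hT]
        exact isBoundedAtImInfty_of_hasSum_qExpansion one_pos (hasSum_theta pB h0 hev) }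
  exact ⟨f, fun m => (ModularFormClass.qExpansion_coeff_unique one_pos one_mem_strictPeriods_SL
    (f := f) (hasSum_theta pB h0 hev) m).symm⟩

theorem coeff_weight_twelve (f : ModularForm 𝒮ℒ 12) (h0 : (qExpansion 1 f).coeff 0 = 1)
    (h1 : (qExpansion 1 f).coeff 1 = 0) : (qExpansion 1 f).coeff 2 = 196560 ∧
      (qExpansion 1 f).coeff 3 = 16773120 ∧ (qExpansion 1 f).coeff 4 = 398034000 := by
  let g : ModularForm 𝒮ℒ 12 := f - ((7 / 12 : ℂ) • ModularForm.mcast (by decide) (E₄.pow 3) +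
    (5 / 12 : ℂ) • ModularForm.mcast (by decide) (E₆.pow 2))
  have hg : qExpansion 1 g = qExpansion 1 f -
      ((7 / 12 : ℂ) • (qExpansion 1 E₄ * qExpansion 1 E₄ * qExpansion 1 E₄) +
        (5 / 12 : ℂ) • (qExpansion 1 E₆ * qExpansion 1 E₆)) := by
    simp only [g, FunLike.coe_sub]
    rw [ModularForm.qExpansion_sub one_pos one_mem_strictPeriods_SL, FunLike.coe_add,
      ModularForm.qExpansion_add one_pos one_mem_strictPeriods_SL, FunLike.coe_smul, FunLike.coe_smul,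
      ModularForm.qExpansion_smul one_pos one_mem_strictPeriods_SL,
      ModularForm.qExpansion_smul one_pos one_mem_strictPeriods_SL]
    simp only [coe_mcast, ModularForm.qExpansion_pow one_pos one_mem_strictPeriods_SL]
    ring_nf
  have b4 : bernoulli 4 = -1 / 30 := by decide +kernel
  have b6 : bernoulli 6 = 1 / 42 := by decide +kernel
  have s4 : ArithmeticFunction.sigma 3 1 = 1 ∧ ArithmeticFunction.sigma 3 2 = 9 ∧
    ArithmeticFunction.sigma 3 3 = 28 ∧ ArithmeticFunction.sigma 3 4 = 73 := by decide +kernel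
  have s6 : ArithmeticFunction.sigma 5 1 = 1 ∧ ArithmeticFunction.sigma 5 2 = 33 ∧
    ArithmeticFunction.sigma 5 3 = 244 ∧ ArithmeticFunction.sigma 5 4 = 1057 := by decide +kernel
  have c4 := fun m => E_qExpansion_coeff (k := 4) (by norm_num) ⟨2, rfl⟩ m
  have c6 := fun m => E_qExpansion_coeff (k := 6) (by norm_num) ⟨3, rfl⟩ m
  have a0 : (qExpansion 1 E₄).coeff 0 = 1 := by rw [E₄, c4]; norm_num
  have a1 : (qExpansion 1 E₄).coeff 1 = 240 := by rw [E₄, c4]; norm_num [b4, s4]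
  have a2 : (qExpansion 1 E₄).coeff 2 = 2160 := by rw [E₄, c4]; norm_num [b4, s4]
  have a3 : (qExpansion 1 E₄).coeff 3 = 6720 := by rw [E₄, c4]; norm_num [b4, s4]
  have a4 : (qExpansion 1 E₄).coeff 4 = 17520 := by rw [E₄, c4]; norm_num [b4, s4]
  have d0 : (qExpansion 1 E₆).coeff 0 = 1 := by rw [E₆, c6]; norm_num
  have d1 : (qExpansion 1 E₆).coeff 1 = -504 := by rw [E₆, c6]; norm_num [b6, s6]
  have d2 : (qExpansion 1 E₆).coeff 2 = -16632 := by rw [E₆, c6]; norm_num [b6, s6]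
  have d3 : (qExpansion 1 E₆).coeff 3 = -122976 := by rw [E₆, c6]; norm_num [b6, s6]
  have d4 : (qExpansion 1 E₆).coeff 4 = -532728 := by rw [E₆, c6]; norm_num [b6, s6]
  have hc := fun m => congrArg (PowerSeries.coeff m) hg
  have hz : g = 0 := by
    refine sturm_bound_levelOne ?_
    refine lt_of_lt_of_le (b := ((2 : ℕ) : ℕ∞)) (by decide) (PowerSeries.nat_le_order _ _ fun i hi => ?_)
    rw [hc]
    interval_cases i <;>
      norm_num [PowerSeries.coeff_mul, Finset.Nat.antidiagonal_succ, -PowerSeries.coeff_zero_eq_constantCoeff,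
        h0, h1, a0, a1, d0, d1]
  rw [hz] at hc
  have q0 : qExpansion 1 (0 : ModularForm 𝒮ℒ 12) = 0 := qExpansion_zero 1
  have k2 := hc 2
  have k3 := hc 3
  have k4 := hc 4
  rw [q0] at k2 k3 k4
  norm_num [PowerSeries.coeff_mul, Finset.Nat.antidiagonal_succ,
    -PowerSeries.coeff_zero_eq_constantCoeff, a0, a1, a2, a3, a4, d0, d1, d2, d3, d4] at k2 k3 k4
  exact ⟨by linear_combination -k2, by linear_combination -k3, by linear_combination -k4⟩

theorem leech_theta (B : Matrix (Fin 24) (Fin 24) ℤ) (hsymm : B.IsSymm)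
    (hpos : ∀ x : Fin 24 → ℤ, x ≠ 0 → 0 < x ⬝ᵥ (B *ᵥ x))
    (heven : ∀ x : Fin 24 → ℤ, (2 : ℤ) ∣ x ⬝ᵥ (B *ᵥ x)) (hdet : B.det = 1)
    (h2 : ∀ x : Fin 24 → ℤ, x ⬝ᵥ (B *ᵥ x) ≠ 2) :
    {x : Fin 24 → ℤ | x ⬝ᵥ (B *ᵥ x) = 4}.ncard = 196560 ∧
      {x : Fin 24 → ℤ | x ⬝ᵥ (B *ᵥ x) = 6}.ncard = 16773120 ∧
      {x : Fin 24 → ℤ | x ⬝ᵥ (B *ᵥ x) = 8}.ncard = 398034000 := by
  have h0 : ∀ x : Fin 24 → ℤ, 0 ≤ x ⬝ᵥ B *ᵥ x := fun x => by
    by_cases hx : x = 0
    · simp [hx]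
    · exact (hpos x hx).le
  obtain ⟨f, hf⟩ := exists_modularForm hsymm (C := B.adjugate)
    (by rw [mul_adjugate, hdet, one_smul]) h0 heven
  have c0 : cf B 0 = 1 := Set.ncard_eq_one.2 ⟨0, Set.eq_singleton_iff_unique_mem.2
    ⟨by simp, fun x hx => by
      by_contra h
      have := hpos x h
      rw [show x ⬝ᵥ B *ᵥ x = _ from hx] at this
      simp at this⟩⟩
  have c1 : cf B 1 = 0 := by
    rw [cf, Set.eq_empty_of_forall_notMem (s := {x | x ⬝ᵥ B *ᵥ x = 2 * (1 : ℕ)}) fun x hx => h2 x hx,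
      Set.ncard_empty]
  obtain ⟨k2, k3, k4⟩ := coeff_weight_twelve f (by rw [hf, c0, Nat.cast_one])
    (by rw [hf, c1, Nat.cast_zero])
  rw [hf] at k2 k3 k4
  exact ⟨by exact_mod_cast k2, by exact_mod_cast k3, by exact_mod_cast k4⟩

end CL.Comp.Th
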